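import Cfsg.Agent.Lib.Stein.Rep

/-!
Maximal flags of admissible subspaces, panels, the Steinberg space, opposite flags.
-/

set_option autoImplicit false

namespace Cfsg.Agent.Lib.Stein

open Module

variable {F V : Type*} [Field F] [AddCommGroup V] [Module F V]

/-- flags `V 0 < V 1 < … < V r` with `dim (V i) = i` and `V r` admissible -/
@[ext] structure Ch (S : Submodule F V → Prop) (r : ℕ) where
  /-- the subspaces -/
  sp : ℕ → Submodule F V
  mono : Monotone sp
  dim : ∀ i ≤ r, finrank F (sp i) = i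
  top : ∀ i, r ≤ i → sp i = sp r
  adm : S (sp r)

variable {S : Submodule F V → Prop} {r : ℕ}

theorem Ch.ext' {c c' : Ch S r} (h : ∀ i ≤ r, c.sp i = c'.sp i) : c = c' := by
  refine Ch.ext (funext fun i => ?_)
  rcases le_total i r with hi | hi
  · exact h i hi
  · rw [c.top i hi, c'.top i hi, h r le_rfl]

theorem Ch.le_top (c : Ch S r) (i : ℕ) : c.sp i ≤ c.sp r := by
  rcases le_total i r with hi | hi
  · exact c.mono hi
  · exact (c.top i hi).le

theorem Ch.zero [FiniteDimensional F V] (c : Ch S r) : c.sp 0 = ⊥ :=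
  Submodule.finrank_eq_zero.1 (c.dim 0 (Nat.zero_le r))

instance instFiniteCh [Finite V] : Finite (Ch S r) :=
  Finite.of_injective (fun (c : Ch S r) (i : Fin (r + 1)) => (c.sp i : Set V)) fun c c' h =>
    Ch.ext' fun i hi => SetLike.coe_injective (congrFun h ⟨i, by omega⟩)

noncomputable instance instFintypeCh [Finite V] : Fintype (Ch S r) := Fintype.ofFinite _

/-- the automorphisms preserving admissibility -/
def Aut (S : Submodule F V → Prop) : Subgroup (V ≃ₗ[F] V) where
  carrier := {g | ∀ X, S (X.map (g : V →ₗ[F] V)) ↔ S X}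
  one_mem' X := by rw [show ((1 : V ≃ₗ[F] V) : V →ₗ[F] V) = LinearMap.id from rfl, Submodule.map_id]
  mul_mem' {a b} ha hb X := by
    rw [show ((a * b : V ≃ₗ[F] V) : V →ₗ[F] V) = (a : V →ₗ[F] V) ∘ₗ b from rfl,
      Submodule.map_comp, ha, hb]
  inv_mem' {a} ha X := by
    rw [← ha, ← Submodule.map_comp,
      show (a : V →ₗ[F] V) ∘ₗ ((a⁻¹ : V ≃ₗ[F] V) : V →ₗ[F] V) = LinearMap.id from
        LinearMap.ext fun x => a.apply_symm_apply x, Submodule.map_id]

instance instSMulCh : SMul (Aut S) (Ch S r) where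
  smul g c :=
    { sp := fun i => (c.sp i).map (g.1 : V →ₗ[F] V)
      mono := fun _ _ h => Submodule.map_mono (c.mono h)
      dim := fun i hi => by rw [LinearEquiv.finrank_map_eq, c.dim i hi]
      top := fun i hi => by rw [c.top i hi]
      adm := (g.2 _).2 c.adm }

theorem smul_sp (g : Aut S) (c : Ch S r) (i : ℕ) :
    (g • c).sp i = (c.sp i).map (g.1 : V →ₗ[F] V) := rfl

instance instMulActionCh : MulAction (Aut S) (Ch S r) where
  one_smul c := Ch.ext (funext fun i => Submodule.map_id _)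
  mul_smul g h c := Ch.ext (funext fun i => Submodule.map_comp _ _ _)

theorem mem_smul_sp (g : Aut S) (c : Ch S r) (i : ℕ) (x : V) :
    g.1 x ∈ (g • c).sp i ↔ x ∈ c.sp i := by
  rw [smul_sp]
  exact ⟨fun ⟨y, hy, e⟩ => g.1.injective e ▸ hy, fun h => ⟨x, h, rfl⟩⟩

theorem smul_eq_of_mem [FiniteDimensional F V] {g : Aut S} {c c' : Ch S r}
    (h : ∀ i ≤ r, ∀ x ∈ c.sp i, g.1 x ∈ c'.sp i) : g • c = c' := by
  refine Ch.ext' fun i hi => Submodule.eq_of_le_of_finrank_eq ?_ (by rw [(g • c).dim i hi, c'.dim i hi])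
  rintro _ ⟨x, hx, rfl⟩
  exact h i hi x hx

/-- adjacency of type `i` -/
def Adj (i : ℕ) (c c' : Ch S r) : Prop := ∀ j ≤ r, j ≠ i → c.sp j = c'.sp j

theorem Adj.refl (i : ℕ) (c : Ch S r) : Adj i c c := fun _ _ _ => rfl
theorem Adj.symm {i : ℕ} {c c' : Ch S r} (h : Adj i c c') : Adj i c' c :=
  fun j hj hji => (h j hj hji).symm
theorem Adj.trans {i : ℕ} {c c' c'' : Ch S r} (h : Adj i c c') (h' : Adj i c' c'') : Adj i c c'' :=
  fun j hj hji => (h j hj hji).trans (h' j hj hji)
theorem Adj.smul {i : ℕ} {c c' : Ch S r} (h : Adj i c c') (g : Aut S) : Adj i (g • c) (g • c') :=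
  fun j hj hji => by rw [smul_sp, smul_sp, h j hj hji]

open Classical in
/-- the functions with zero sum on each panel whose type is in `I` -/
def St [Finite V] (S : Submodule F V → Prop) (r : ℕ) (I : Set ℕ) : Submodule ℂ (Ch S r → ℂ) where
  carrier := {f | ∀ i ∈ I, ∀ c, ∑ c' : Ch S r with Adj i c c', f c' = 0}
  zero_mem' i _ c := by simp
  add_mem' {f g} hf hg i hi c := by
    simp only [Pi.add_apply, Finset.sum_add_distrib, hf i hi c, hg i hi c, add_zero]
  smul_mem' a f hf i hi c := by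
    simp only [Pi.smul_apply, ← Finset.smul_sum, hf i hi c, smul_zero]

theorem St_inv [Finite V] {I : Set ℕ} (g : Aut S) {f : Ch S r → ℂ} (hf : f ∈ St S r I) :
    (fun c => f (g • c)) ∈ St S r I := by
  classical
  intro i hi c
  rw [← hf i hi (g • c)]
  refine Finset.sum_equiv (MulAction.toPerm g) (fun c' => ?_) fun _ _ => rfl
  simp only [Finset.mem_filter, Finset.mem_univ, true_and, MulAction.toPerm_apply]
  exact ⟨fun h => h.smul g, fun h => by simpa using h.smul g⁻¹⟩

theorem apartment_mem [Finite V] {I : Set ℕ} {W : Type*} [Fintype W] (ch : W → Ch S r) (sg : W → ℂ)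
    (hs : ∀ i ∈ I, ∃ s : W ≃ W, ∀ w, Adj i (ch w) (ch (s w)) ∧ sg (s w) = - sg w) :
    (fun c => open Classical in ∑ w : W with ch w = c, sg w) ∈ St S r I := by
  classical
  intro i hi c
  obtain ⟨s, hs⟩ := hs i hi
  have h1 : ∑ c' : Ch S r with Adj i c c', ∑ w : W with ch w = c', sg w =
      ∑ w : W with Adj i c (ch w), sg w := by
    rw [← Finset.sum_fiberwise_of_maps_to (s := Finset.univ.filter fun w => Adj i c (ch w))
      (t := Finset.univ.filter fun c' => Adj i c c') (g := ch) (by simp)]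
    refine Finset.sum_congr rfl fun c' hc' => Finset.sum_congr ?_ fun _ _ => rfl
    ext w
    simp only [Finset.mem_filter, Finset.mem_univ, true_and] at hc' ⊢
    exact ⟨fun h => ⟨h ▸ hc', h⟩, fun h => h.2⟩
  have h2 : ∑ w : W with Adj i c (ch w), - sg w = ∑ w : W with Adj i c (ch w), sg w := by
    refine Finset.sum_equiv s (fun w => ?_) fun w _ => (hs w).2.symm
    simp only [Finset.mem_filter, Finset.mem_univ, true_and]
    exact ⟨fun h => h.trans (hs w).1, fun h => h.trans (hs w).1.symm⟩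
  rw [Finset.sum_neg_distrib] at h2
  convert h1.trans (show _ = 0 by linear_combination (-1 / 2 : ℂ) * h2)

/-! ### Levels -/

variable (lam : ℕ → Module.Dual F V) (N : ℕ)

/-- `k` is the last index below `N` with `lam k x ≠ 0` -/
def Lev (x : V) (k : ℕ) : Prop := k < N ∧ lam k x ≠ 0 ∧ ∀ j, k < j → j < N → lam j x = 0

variable {lam N}

theorem exists_lev {x : V} (h : ¬ ∀ k < N, lam k x = 0) : ∃ k, Lev lam N x k := by
  classical
  push Not at h
  obtain ⟨k, hk, hk'⟩ := h
  refine ⟨Nat.findGreatest (fun k => k < N ∧ lam k x ≠ 0) N, ?_, ?_, fun j hj hjN => ?_⟩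
  · exact (Nat.findGreatest_spec (P := fun k => k < N ∧ lam k x ≠ 0) hk.le ⟨hk, hk'⟩).1
  · exact (Nat.findGreatest_spec (P := fun k => k < N ∧ lam k x ≠ 0) hk.le ⟨hk, hk'⟩).2
  · by_contra h
    exact Nat.findGreatest_is_greatest hj hjN.le ⟨hjN, h⟩

variable (lam N) in
open Classical in
/-- the set of levels of vectors in `X` -/
noncomputable def levs (X : Submodule F V) : Finset ℕ :=
  (Finset.range N).filter fun k => ∃ x ∈ X, Lev lam N x k

theorem mem_levs {X : Submodule F V} {k : ℕ} : k ∈ levs lam N X ↔ ∃ x ∈ X, Lev lam N x k := by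
  simp only [levs, Finset.mem_filter, Finset.mem_range, and_iff_right_iff_imp]
  rintro ⟨x, -, h⟩
  exact h.1

theorem levs_bot : levs lam N (⊥ : Submodule F V) = ∅ := by
  ext k
  simp only [mem_levs, Submodule.mem_bot, exists_eq_left, Finset.notMem_empty, iff_false]
  intro h
  exact h.2.1 (map_zero _)

theorem mem_sup_of_codim_one [FiniteDimensional F V] {X Y : Submodule F V} (hYX : Y ≤ X)
    (hd : finrank F X = finrank F Y + 1) {x : V} (hx : x ∈ X) (hxY : x ∉ Y) {x' : V} (hx' : x' ∈ X) :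
    ∃ y ∈ Y, ∃ t : F, x' = y + t • x := by
  have h1 : Y ⊔ F ∙ x = X := by
    refine Submodule.eq_of_le_of_finrank_le (sup_le hYX (by simpa using hx)) ?_
    have : Y < Y ⊔ F ∙ x := lt_of_le_of_ne le_sup_left fun h =>
      hxY (h ▸ Submodule.mem_sup_right (Submodule.mem_span_singleton_self x))
    have := Submodule.finrank_lt_finrank_of_lt this
    omega
  rw [← h1] at hx'
  obtain ⟨y, hy, z, hz, rfl⟩ := Submodule.mem_sup.1 hx'
  obtain ⟨t, rfl⟩ := Submodule.mem_span_singleton.1 hz
  exact ⟨y, hy, t, rfl⟩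

theorem exists_notMem_of_codim_one {X Y : Submodule F V} [FiniteDimensional F V]
    (hd : finrank F X = finrank F Y + 1) : ∃ x ∈ X, x ∉ Y := by
  by_contra h
  push Not at h
  have := Submodule.finrank_mono (show X ≤ Y from h)
  omega

theorem step_levs [FiniteDimensional F V] {X Y : Submodule F V} (hYX : Y ≤ X)
    (hd : finrank F X = finrank F Y + 1) (hK : ∀ x ∈ X, (∀ k < N, lam k x = 0) → x = 0) :
    ∃ j, j ∉ levs lam N Y ∧ levs lam N X = insert j (levs lam N Y) ∧
      (∃ x ∈ X, x ∉ Y ∧ Lev lam N x j) ∧ ∀ x ∈ X, x ∉ Y → ∀ k, Lev lam N x k → j ≤ k := by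
  classical
  have hlev : ∀ x ∈ X, x ∉ Y → ∃ k, Lev lam N x k := fun x hx hxY =>
    exists_lev fun h => hxY (hK x hx h ▸ Y.zero_mem)
  have hex : ∃ j, ∃ x ∈ X, x ∉ Y ∧ Lev lam N x j := by
    obtain ⟨x, hx, hxY⟩ := exists_notMem_of_codim_one hd
    obtain ⟨k, hk⟩ := hlev x hx hxY
    exact ⟨k, x, hx, hxY, hk⟩
  obtain ⟨x, hx, hxY, hj⟩ := Nat.find_spec hex
  have hmin : ∀ x ∈ X, x ∉ Y → ∀ k, Lev lam N x k → Nat.find hex ≤ k :=
    fun x hx hxY k hk => Nat.find_min' hex ⟨x, hx, hxY, hk⟩
  set j := Nat.find hex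
  refine ⟨j, ?_, ?_, ⟨x, hx, hxY, hj⟩, hmin⟩
  · rw [mem_levs]
    rintro ⟨y, hy, hyj⟩
    have h1 : x - (lam j x / lam j y) • y ∈ X := X.sub_mem hx (X.smul_mem _ (hYX hy))
    have h2 : x - (lam j x / lam j y) • y ∉ Y := fun h =>
      hxY (by simpa using Y.add_mem h (Y.smul_mem (lam j x / lam j y) hy))
    obtain ⟨k, hk⟩ := hlev _ h1 h2
    apply hk.2.1
    rw [map_sub, map_smul, smul_eq_mul]
    rcases (hmin _ h1 h2 k hk).eq_or_lt with h | h
    · rw [← h, div_mul_cancel₀ _ hyj.2.1, sub_self]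
    · rw [hj.2.2 k h hk.1, hyj.2.2 k h hk.1]; simp
  · ext k
    rw [Finset.mem_insert, mem_levs, mem_levs]
    constructor
    · rintro ⟨x', hx', hk⟩
      by_cases hx'Y : x' ∈ Y
      · exact Or.inr ⟨x', hx'Y, hk⟩
      rcases (hmin _ hx' hx'Y k hk).eq_or_lt with h | h
      · exact Or.inl h.symm
      obtain ⟨y, hy, t, rfl⟩ := mem_sup_of_codim_one hYX hd hx hxY hx'
      refine Or.inr ⟨y, hy, hk.1, ?_, fun i hi hiN => ?_⟩
      · have := hk.2.1
        rwa [map_add, map_smul, hj.2.2 k h hk.1, smul_zero, add_zero] at this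
      · have := hk.2.2 i hi hiN
        rwa [map_add, map_smul, hj.2.2 i (h.trans hi) hiN, smul_zero, add_zero] at this
    · rintro (rfl | ⟨y, hy, hk⟩)
      · exact ⟨x, hx, hj⟩
      · exact ⟨y, hYX hy, hk⟩

variable (lam N) in
/-- the flags opposite to the reference flag -/
def Opp (S : Submodule F V → Prop) (r : ℕ) : Set (Ch S r) :=
  {c | ∀ i ≤ r, ∀ x ∈ c.sp i, (∀ k, N - i ≤ k → k < N → lam k x = 0) → x = 0}

theorem card_levs [FiniteDimensional F V] (c : Ch S r)
    (hK : ∀ x ∈ c.sp r, (∀ k < N, lam k x = 0) → x = 0) :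
    ∀ i ≤ r, (levs lam N (c.sp i)).card = i := by
  intro i hi
  induction i with
  | zero => rw [c.zero, levs_bot]; rfl
  | succ i ih =>
    obtain ⟨j, h1, h2, -⟩ := step_levs (lam := lam) (N := N) (c.mono (Nat.le_succ i))
      (by rw [c.dim _ hi, c.dim i (by omega)]) fun x hx => hK x (c.le_top _ hx)
    rw [h2, Finset.card_insert_of_notMem h1, ih (by omega)]

theorem St_inj [Finite V] [FiniteDimensional F V] {I : Set ℕ}
    (hK : ∀ c : Ch S r, ∀ x ∈ c.sp r, (∀ k < N, lam k x = 0) → x = 0)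
    (hI : ∀ i, 1 ≤ i → i < r → i ∈ I)
    (hlast : N ≤ r ∨ (r ∈ I ∧ ∀ c c' : Ch S r, Adj r c c' → c' ≠ c → ∀ x ∈ c.sp r,
      x ∉ c.sp (r - 1) → ∀ x' ∈ c'.sp r, x' ∉ c.sp (r - 1) → ∀ k k', Lev lam N x k →
      Lev lam N x' k' → k' ≤ k → N - r ≤ k))
    {f : Ch S r → ℂ} (hf : f ∈ St S r I) (h0 : ∀ c ∈ Opp lam N S r, f c = 0) : f = 0 := by
  classical
  by_contra hne
  obtain ⟨c1, hc1⟩ : ∃ c, f c ≠ 0 := by
    by_contra h
    push Not at h
    exact hne (funext h)
  let s : Submodule F V → ℕ := fun X => ∑ k ∈ levs lam N X, k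
  let m : Ch S r → ℕ := fun c => ∑ i ∈ Finset.range (r + 1), s (c.sp i)
  obtain ⟨c, hc, hmax⟩ := Finset.exists_max_image (Finset.univ.filter fun c => f c ≠ 0) m
    ⟨c1, by simpa using hc1⟩
  simp only [Finset.mem_filter, Finset.mem_univ, true_and] at hc hmax
  have hnb : ∀ i ∈ I, i ≤ r → ∃ c', Adj i c c' ∧ c' ≠ c ∧ s (c'.sp i) ≤ s (c.sp i) := by
    intro i hi hir
    by_contra h
    push Not at h
    have h1 := hf i hi c
    rw [Finset.sum_eq_single c] at h1
    · exact hc h1
    · intro c' hc' hne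
      by_contra h2
      have h3 := hmax c' h2
      have hadj : Adj i c c' := by simpa using hc'
      have h4 := h c' hadj hne
      have h5 : ∀ c'' : Ch S r, m c'' = s (c''.sp i) +
          ∑ j ∈ (Finset.range (r + 1)).erase i, s (c''.sp j) := fun c'' =>
        (Finset.add_sum_erase _ (fun j => s (c''.sp j)) (Finset.mem_range.2 (by omega))).symm
      have h6 : ∑ j ∈ (Finset.range (r + 1)).erase i, s (c'.sp j) =
          ∑ j ∈ (Finset.range (r + 1)).erase i, s (c.sp j) := by
        refine Finset.sum_congr rfl fun j hj => ?_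
        rw [Finset.mem_erase, Finset.mem_range] at hj
        rw [hadj j (by omega) hj.1]
      rw [h5, h5, h6] at h3
      omega
    · intro h; exact absurd (by simpa using Adj.refl i c) h
  have hstep : ∀ (c : Ch S r) (i : ℕ), i < r → ∃ j, j ∉ levs lam N (c.sp i) ∧
      levs lam N (c.sp (i + 1)) = insert j (levs lam N (c.sp i)) ∧
      (∃ x ∈ c.sp (i + 1), x ∉ c.sp i ∧ Lev lam N x j) ∧
      ∀ x ∈ c.sp (i + 1), x ∉ c.sp i → ∀ k, Lev lam N x k → j ≤ k := fun c i hi =>
    step_levs (c.mono (Nat.le_succ i)) (by rw [c.dim _ hi, c.dim i hi.le])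
      fun x hx => hK c x (c.le_top _ hx)
  choose! J hJ1 hJ2 hJ3 hJ4 using hstep
  -- comparison of jumps with a neighbour
  have hcmp : ∀ i, i < r → ∀ c', Adj (i + 1) c c' → s (c'.sp (i + 1)) ≤ s (c.sp (i + 1)) →
      J c' i ≤ J c i := by
    intro i hi c' hadj hs
    have e : c.sp i = c'.sp i := hadj i hi.le (by omega)
    simp only [s] at hs
    rw [hJ2 c i hi, hJ2 c' i hi, Finset.sum_insert (hJ1 c i hi), Finset.sum_insert (hJ1 c' i hi),
      e] at hs
    omega
  have hdec : ∀ i, i + 1 < r → J c (i + 1) < J c i := by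
    intro i hi
    obtain ⟨c', hadj, hne, hs⟩ := hnb (i + 1) (hI _ (by omega) hi) hi.le
    have h1 := hcmp i (by omega) c' hadj hs
    obtain ⟨x', hx', hx'n, hlev⟩ := hJ3 c' i (by omega)
    have e0 : c.sp i = c'.sp i := hadj i (by omega) (by omega)
    have e2 : c.sp (i + 2) = c'.sp (i + 2) := hadj (i + 2) (by omega) (by omega)
    have h2 : x' ∉ c.sp (i + 1) := by
      intro h
      apply hne
      refine Ch.ext' fun j hj => ?_
      by_cases hji : j = i + 1
      · subst hji
        refine Submodule.eq_of_le_of_finrank_eq (fun y hy => ?_) (by rw [c.dim _ hj, c'.dim _ hj])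
        obtain ⟨z, hz, t, rfl⟩ := mem_sup_of_codim_one (c'.mono (Nat.le_succ i))
          (by rw [c'.dim _ hj, c'.dim i (by omega)]) hx' hx'n hy
        exact add_mem (c.mono (Nat.le_succ i) (e0 ▸ hz)) (Submodule.smul_mem _ _ h)
      · exact (hadj j hj hji).symm
    have h3 := hJ4 c (i + 1) hi x' (e2 ▸ c'.mono (Nat.le_succ _) hx') h2 _ hlev
    have h4 : J c (i + 1) ≠ J c i := by
      intro h
      apply hJ1 c (i + 1) hi
      rw [h, hJ2 c i (by omega)]
      exact Finset.mem_insert_self _ _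
    omega
  have hbot : 0 < r → N - r ≤ J c (r - 1) := by
    intro hr
    rcases hlast with h | ⟨hrI, h⟩
    · omega
    obtain ⟨c', hadj, hne, hs⟩ := hnb r hrI le_rfl
    have er : r - 1 + 1 = r := by omega
    have h1 := hcmp (r - 1) (by omega) c' (by rwa [er]) (by rwa [er])
    obtain ⟨x, hx, hxn, hlev⟩ := hJ3 c (r - 1) (by omega)
    obtain ⟨x', hx', hx'n, hlev'⟩ := hJ3 c' (r - 1) (by omega)
    rw [er] at hx hx'
    rw [← hadj (r - 1) (by omega) (by omega)] at hx'n
    exact h c c' hadj hne x hx hxn x' hx' hx'n _ _ hlev hlev' h1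
  have hge : ∀ t i, i + t + 1 = r → N - r + t ≤ J c i := by
    intro t
    induction t with
    | zero => intro i hi; have := hbot (by omega); rwa [show r - 1 = i by omega] at this
    | succ t ih =>
      intro i hi
      have h1 := ih (i + 1) (by omega)
      have h2 := hdec i (by omega)
      omega
  have hlevs : ∀ i ≤ r, ∀ k ∈ levs lam N (c.sp i), N - i ≤ k := by
    intro i hi
    induction i with
    | zero => rw [c.zero, levs_bot]; simp
    | succ i ih =>
      intro k hk
      rw [hJ2 c i hi, Finset.mem_insert] at hk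
      rcases hk with rfl | hk
      · have := hge (r - i - 1) i (by omega)
        omega
      · have := ih (by omega) k hk
        omega
  refine hc (h0 c fun i hi x hx hx0 => ?_)
  by_contra hxne
  obtain ⟨k, hk⟩ := exists_lev (lam := lam) (N := N) fun h => hxne (hK c x (c.le_top _ hx) h)
  exact hk.2.1 (hx0 k (hlevs i hi k (mem_levs.2 ⟨x, hx, hk⟩)) hk.1)

theorem seq_eq_of_opp {c : Ch S r} (hc : c ∈ Opp lam N S r) (a : ℕ → V)
    (ha : ∀ j < N, ∀ k < N, lam k (a j) = if k = j then 1 else 0) (w : ℕ → ℕ)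
    (hw : ∀ t < r, w t < N) (hinj : ∀ s < r, ∀ t < r, w s = w t → s = t)
    (hmem : ∀ t < r, a (w t) ∈ c.sp (t + 1)) : ∀ t < r, w t = N - 1 - t := by
  intro t
  induction t using Nat.strong_induction_on with
  | _ t ih =>
  intro ht
  have h1 : N - (t + 1) ≤ w t := by
    by_contra h
    have h2 := hc (t + 1) ht _ (hmem t ht) fun k hk hkN => by
      rw [ha _ (hw t ht) k hkN, if_neg (by omega)]
    have h3 := ha _ (hw t ht) _ (hw t ht)
    rw [h2, map_zero, if_pos rfl] at h3
    exact zero_ne_one h3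
  by_contra hne
  have h4 := hw t ht
  have h5 := ih (N - 1 - w t) (by omega) (by omega)
  have := hinj (N - 1 - w t) (by omega) t ht (by omega)
  omega

/-- the flag spanned by the initial segments of a sequence of vectors -/
def flagOf (v : ℕ → V) (hv : LinearIndependent F fun t : Fin r => v t)
    (hS : S (Submodule.span F (v '' {t | t < r}))) : Ch S r where
  sp i := Submodule.span F (v '' {t | t < min i r})
  mono i j h := Submodule.span_mono (Set.image_mono fun t ht =>
    lt_of_lt_of_le ht (min_le_min_right r h))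
  dim i hi := by
    rw [min_eq_left hi]
    have h1 : LinearIndependent F fun t : Fin i => v t :=
      hv.comp (Fin.castLE hi) (Fin.castLE_injective hi)
    have h2 : v '' {t | t < i} = Set.range fun t : Fin i => v t := by
      ext x
      exact ⟨fun ⟨t, ht, e⟩ => ⟨⟨t, ht⟩, e⟩, fun ⟨t, e⟩ => ⟨t, t.2, e⟩⟩
    rw [h2, finrank_span_eq_card h1, Fintype.card_fin]
  top i hi := by rw [min_eq_right hi, min_self]
  adm := by rwa [min_self]

theorem flagOf_sp (v : ℕ → V) (hv : LinearIndependent F fun t : Fin r => v t)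
    (hS : S (Submodule.span F (v '' {t | t < r}))) {i : ℕ} (hi : i ≤ r) :
    (flagOf v hv hS).sp i = Submodule.span F (v '' {t | t < i}) := by
  change Submodule.span F (v '' {t | t < min i r}) = _
  rw [min_eq_left hi]

/-- every flag is spanned by a sequence of vectors -/
theorem exists_seq [FiniteDimensional F V] (c : Ch S r) :
    ∃ v : ℕ → V, (LinearIndependent F fun t : Fin r => v t) ∧
      ∀ i ≤ r, c.sp i = Submodule.span F (v '' {t | t < i}) := by
  have h : ∀ i < r, ∃ x ∈ c.sp (i + 1), x ∉ c.sp i := fun i hi =>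
    exists_notMem_of_codim_one (by rw [c.dim _ hi, c.dim i hi.le])
  choose! v hv1 hv2 using h
  have h2 : ∀ i ≤ r, c.sp i = Submodule.span F (v '' {t | t < i}) := by
    intro i hi
    induction i with
    | zero => simp [c.zero]
    | succ i ih =>
      apply le_antisymm
      · intro x hx
        obtain ⟨y, hy, t, rfl⟩ := mem_sup_of_codim_one (c.mono (Nat.le_succ i))
          (by rw [c.dim _ hi, c.dim i (by omega)]) (hv1 i hi) (hv2 i hi) hx
        rw [ih (by omega)] at hy
        exact add_mem (Submodule.span_mono (Set.image_mono fun s hs => Nat.lt_succ_of_lt hs) hy)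
          (Submodule.smul_mem _ _ (Submodule.subset_span ⟨i, Nat.lt_succ_self i, rfl⟩))
      · rw [Submodule.span_le]
        rintro _ ⟨t, ht, rfl⟩
        exact c.mono (show t + 1 ≤ i + 1 from ht) (hv1 t (lt_of_lt_of_le ht hi))
  refine ⟨v, ?_, h2⟩
  rw [linearIndependent_iff_card_eq_finrank_span, Fintype.card_fin, Set.finrank]
  have h3 : (Set.range fun t : Fin r => v t) = v '' {t | t < r} := by
    ext x
    exact ⟨fun ⟨t, e⟩ => ⟨t, t.2, e⟩, fun ⟨t, ht, e⟩ => ⟨⟨t, ht⟩, e⟩⟩
  rw [h3, ← h2 r le_rfl, c.dim r le_rfl]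

/-- an automorphism acting trivially on the quotients of a chain has `p`-power order -/
theorem pow_eq_one_of_chain {p : ℕ} [Fact p.Prime] [CharP F p] (M : ℕ → Submodule F V) (n : ℕ)
    (h0 : M 0 = ⊥) (hn : M n = ⊤) (g : V ≃ₗ[F] V) (hg : ∀ j, ∀ x ∈ M (j + 1), g x - x ∈ M j) :
    g ^ p ^ n = 1 := by
  let A : Module.End F V := (g : V →ₗ[F] V) - 1
  have h1 : ∀ j, ∀ x ∈ M j, (A ^ j) x = 0 := by
    intro j
    induction j with
    | zero => intro x hx; rw [h0] at hx; simpa using hx
    | succ j ih =>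
      intro x hx
      rw [pow_succ, Module.End.mul_apply]
      exact ih _ (hg j x hx)
  have h2 : A ^ n = 0 := LinearMap.ext fun x => h1 n x (hn ▸ Submodule.mem_top)
  have h3 : A ^ p ^ n = 0 :=
    pow_eq_zero_of_le (Nat.lt_pow_self (Fact.out : p.Prime).one_lt).le h2
  rcases subsingleton_or_nontrivial V with hV | hV
  · exact Subsingleton.elim _ _
  haveI : CharP (Module.End F V) p := charP_of_injective_algebraMap
    (FaithfulSMul.algebraMap_injective F (Module.End F V)) p
  have h4 := sub_pow_char_pow_of_commute (p := p) (n := n) (Commute.one_right (g : V →ₗ[F] V))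
  rw [h3, one_pow, eq_comm, sub_eq_zero] at h4
  ext x
  have := congrArg (fun T : Module.End F V => T x) h4
  simpa [LinearEquiv.pow_apply, Module.End.pow_apply] using this

/-- the automorphisms acting trivially on the quotients of a chain -/
def chainGrp (M : ℕ → Submodule F V) (hM : Monotone M) [FiniteDimensional F V] :
    Subgroup (V ≃ₗ[F] V) where
  carrier := {g | ∀ j, ∀ x ∈ M (j + 1), g x - x ∈ M j}
  one_mem' j x _ := by simp
  mul_mem' {a b} ha hb j x hx := by
    have h1 := hb j x hx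
    have h2 : b x ∈ M (j + 1) := by simpa using add_mem (hM (Nat.le_succ j) h1) hx
    have := add_mem (ha j _ h2) h1
    simpa using this
  inv_mem' {a} ha j x hx := by
    have h1 : (M (j + 1)).map (a : V →ₗ[F] V) = M (j + 1) := by
      refine Submodule.eq_of_le_of_finrank_eq ?_ (LinearEquiv.finrank_map_eq _ _)
      rintro _ ⟨y, hy, rfl⟩
      simpa using add_mem (hM (Nat.le_succ j) (ha j y hy)) hy
    rw [← h1] at hx
    obtain ⟨y, hy, rfl⟩ := hx
    have := neg_mem (ha j y hy)
    simpa using this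

end Cfsg.Agent.Lib.Stein
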