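import Cfsg.Agent.Lib.Stein.Polar2
import Cfsg.Agent.Lib.Forms.QuadTorus
import Cfsg.Agent.Lib.Forms.QuadClassify2

/-!
The Steinberg character of the orthogonal groups.
-/

set_option autoImplicit false

namespace Cfsg.Agent.Lib.Stein

open Module Cfsg.Agent.Lib.Forms QuadraticMap

theorem exists_fixed_res {F V : Type*} [Field F] [AddCommGroup V] [Module F V] {p : ℕ}
    [Fact p.Prime] [CharP F p] {g : V ≃ₗ[F] V} (hg : g ^ p = 1) (hne : g ≠ 1) :
    ∃ y, g y - y ≠ 0 ∧ g (g y - y) = g y - y := by
  by_contra hn
  push Not at hn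
  let A : Module.End F V := (g : V →ₗ[F] V) - 1
  have hA : ∀ y, A y = g y - y := fun y => rfl
  rcases subsingleton_or_nontrivial V with hV | hV
  · exact hne (Subsingleton.elim _ _)
  haveI : CharP (Module.End F V) p := charP_of_injective_algebraMap
    (FaithfulSMul.algebraMap_injective F (Module.End F V)) p
  have h4 : A ^ p = 0 := by
    rw [sub_pow_char_of_commute p (Commute.one_right (g : V →ₗ[F] V)), one_pow, sub_eq_zero]
    ext x
    have := congrArg (fun T : V ≃ₗ[F] V => T x) hg
    simpa [LinearEquiv.pow_apply, Module.End.pow_apply] using this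
  have h5 : ∀ k y, (A ^ (k + 1)) y = 0 → A y = 0 := by
    intro k
    induction k with
    | zero => intro y hy; simpa using hy
    | succ k ih =>
      intro y hy
      rw [pow_succ, Module.End.mul_apply] at hy
      by_contra h
      exact hn y h (sub_eq_zero.1 (ih _ hy))
  apply hne
  ext y
  have := h5 (p - 1) y (by rw [Nat.sub_add_cancel (Fact.out : p.Prime).one_le, h4]; rfl)
  exact sub_eq_zero.1 this

variable {F : Type*} [Field F] [Fintype F] {ι : Type} [Fintype ι] [DecidableEq ι]

theorem hasSt_orth {p : ℕ} [Fact p.Prime] [CharP F p] {Q : QuadraticForm F (ι → F)}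
    (hQ : Nondeg Q) (hN : NonExc Q) : HasSt p (Cfsg.POmega F Q) := by
  classical
  let ρ : Cfsg.Omega F Q →* ((ι → F) ≃ₗ[F] (ι → F)) :=
    (OG Q).subtype.comp ((toOG Q).toMonoidHom.comp (Cfsg.Omega F Q).subtype)
  have hdick : ∀ g : Cfsg.Omega F Q, dick (toOG Q g) = 1 := fun g =>
    ((hQ.mem_Om_iff hN _).1 ((mem_Omega_iff _).1 g.2)).1
  refine hasSt_polar (isWittForm_quadratic Q hQ) ρ ?_ ?_ ?_ ?_ ?_
  · exact Subtype.val_injective.comp ((toOG Q).injective.comp Subtype.val_injective)
  · exact fun g => ⟨OG.map_polar (toOG Q g), (toOG Q g).2⟩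
  · intro g e hg he he0 hge hy _
    obtain ⟨f, hf, hef⟩ := hQ.exists_hyperbolic he0 he
    have hfe : polar Q f e = 1 := by rw [polar_comm, hef]
    have hw : polar Q e (g f - f) = 0 := by
      rw [polar_sub_right, ← hge, hg.1, hge, sub_self]
    have hmem := hQ.eich_mem_Om hN he hw
    have heq : (eich Q e (g f - f)).1 = g := by
      have h1 : (eich Q e (g f - f)).1 f = g f := by
        have h2 : Q (g f - f) = -polar Q (g f) f := by rw [Q_sub, hg.2, hf]; simp
        rw [eich_apply he hw, hfe, h2, polar_sub_right, polar_self', hf, polar_comm Q f (g f)]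
        simp
      have h3 : ∀ y, polar Q y e = 0 → (eich Q e (g f - f)).1 y = g y := by
        intro y hye
        obtain ⟨a, ha⟩ := Submodule.mem_span_singleton.1 (hy y hye)
        have h4 : g y = y + a • e := by rw [ha]; abel
        have h5 := hg.1 y f
        have h6 : polar Q e (g f) = 1 := by rw [← hge, hg.1, hef]
        rw [h4, polar_add_left, polar_smul_left, h6] at h5
        rw [eich_apply he hw, hye, h4, polar_sub_right, ← h5]
        simp
      ext1 y
      have : y = (y - polar Q y e • f) + polar Q y e • f := by abel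
      rw [this, map_add, map_add, map_smul, map_smul, h1, h3]
      rw [polar_sub_left, polar_smul_left, hfe]; simp
    refine ⟨⟨(toOG Q).symm (eich Q e (g f - f)), (mem_Omega_iff _).2 (by simpa using hmem)⟩, ?_⟩
    simp [ρ, heq]
  · intro g hg H
    have hinj : Function.Injective ρ :=
      Subtype.val_injective.comp ((toOG Q).injective.comp Subtype.val_injective)
    apply hinj
    rw [map_one]
    by_contra hne
    have hgp : ρ g ^ p = 1 := by rw [← map_pow, hg, map_one]
    obtain ⟨y, hy, hy'⟩ := exists_fixed_res hgp hne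
    have hpol : ∀ z, polar Q (ρ g z - z) (ρ g y - y) = 0 := fun z => by
      have h1 : polar Q (ρ g z) (ρ g (ρ g y - y)) = polar Q z (ρ g y - y) :=
        OG.map_polar (toOG Q g) _ _
      rw [hy'] at h1
      rw [polar_sub_left, h1, sub_self]
    have hQy : Q (ρ g y - y) ≠ 0 := fun h => hy (sub_eq_zero.2 (H y h))
    have h2 : (2 : F) = 0 := by
      have := hpol y
      rw [polar_self'] at this
      exact (mul_eq_zero.1 this).resolve_right hQy
    have hc : ringChar F = 2 :=
      CharP.ringChar_of_prime_eq_zero (R := F) Nat.prime_two (by exact_mod_cast h2)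
    have hres : resSp (toOG Q g) = F ∙ (ρ g y - y) := by
      apply le_antisymm
      · intro k hk
        obtain ⟨z, rfl⟩ := mem_resSp.1 hk
        change ρ g z - z ∈ _
        obtain ⟨c, hc⟩ := FiniteField.isSquare_of_char_two hc (Q (ρ g z - z) / Q (ρ g y - y))
        have h3 := H (z - c • y) (by
          have : ρ g (z - c • y) - (z - c • y) = (ρ g z - z) - c • (ρ g y - y) := by
            rw [map_sub, map_smul, smul_sub]; abel
          rw [this, Q_sub, Q_smul, polar_smul_right, hpol, ← hc, div_mul_cancel₀ _ hQy]
          linear_combination Q (ρ g z - z) * h2)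
        refine Submodule.mem_span_singleton.2 ⟨c, ?_⟩
        rw [map_sub, map_smul] at h3
        rw [smul_sub]
        linear_combination (exp := 1) -h3
      · rw [Submodule.span_singleton_le_iff_mem]
        exact sub_mem_resSp _ y
    have := hdick g
    rw [dick, hres, finrank_span_singleton hy] at this
    simp at this
  · intro g E hE hp hd
    exfalso
    have hL : IsLag Q E := by
      refine ⟨hE.1, ?_⟩
      have h1 := hQ.finrank_perp E
      have h2 : perp Q E = E := le_antisymm (fun x hx => hp x fun y hy => by
        rw [polar_comm]; exact mem_perp.1 hx y hy) (le_perp_of_ts hE.1)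
      rw [h2] at h1
      omega
    have := (hQ.even_sub_img_iff hN hL (toOG Q g)).2 (hdick g)
    have e : img (toOG Q g) E = E.map (ρ g : (ι → F) →ₗ[F] (ι → F)) := rfl
    rw [e, ← hd, Nat.add_sub_cancel_left] at this
    simp at this

theorem HasSt.congr {p : ℕ} [Fact p.Prime] {G H : Type*} [Group G] [Group H] [Finite G] (e : G ≃* H)
    (h : HasSt p H) : HasSt p G := by
  obtain ⟨χ, ⟨n, σ, hσ, rfl⟩, h⟩ := h
  let τ : Representation ℂ G (Fin n → ℂ) := σ.comp e.toMonoidHom
  refine ⟨τ.character, ⟨n, τ, ?_, rfl⟩, fun P => ?_⟩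
  · haveI : Nontrivial (Subrepresentation τ) := by
      refine ⟨⊥, ⊤, fun h => bot_ne_top (α := Subrepresentation σ) ?_⟩
      have := congrArg Subrepresentation.toSubmodule h
      exact Subrepresentation.toSubmodule_injective this
    refine ⟨fun W => ?_⟩
    let W' : Subrepresentation σ := ⟨W.toSubmodule, fun g v hv => by
      obtain ⟨g, rfl⟩ := e.surjective g
      exact W.apply_mem_toSubmodule g hv⟩
    rcases eq_bot_or_eq_top W' with h | h
    · have := congrArg Subrepresentation.toSubmodule h
      exact Or.inl (Subrepresentation.toSubmodule_injective this)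
    · have := congrArg Subrepresentation.toSubmodule h
      exact Or.inr (Subrepresentation.toSubmodule_injective this)
  · obtain ⟨h1, h2⟩ := h (P.mapSurjective (f := e.toMonoidHom) e.surjective)
    constructor
    · change σ.character (e 1) = _
      rw [map_one, h1]
      congr 1
      exact (Nat.card_congr ((P : Subgroup G).equivMapOfInjective e.toMonoidHom
        e.injective).toEquiv).symm
    · intro x hx hx1
      exact h2 (e x) ⟨x, hx, rfl⟩ (by simpa using hx1)

/-- an isomorphism induces one of the central quotients -/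
def quotCenter {G H : Type*} [Group G] [Group H] (e : G ≃* H) :
    G ⧸ Subgroup.center G ≃* H ⧸ Subgroup.center H :=
  QuotientGroup.congr _ _ e (by
    ext y
    obtain ⟨x, rfl⟩ := e.surjective y
    constructor
    · rintro ⟨z, hz, hzx⟩
      refine Subgroup.mem_center_iff.2 fun w => ?_
      obtain ⟨w, rfl⟩ := e.surjective w
      rw [← hzx]
      simpa using congrArg e (Subgroup.mem_center_iff.1 hz w)
    · intro hx
      exact ⟨x, Subgroup.mem_center_iff.2 fun w => e.injective (by
        simpa using Subgroup.mem_center_iff.1 hx (e w)), rfl⟩)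

end Cfsg.Agent.Lib.Stein
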