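import Cfsg.Agent.Lib.Stein.TypeA
import Cfsg.Agent.Lib.Forms.Witt

/-!
Totally singular subspaces of a Witt form, hyperbolic frames, Eichler maps.
-/

set_option autoImplicit false

namespace Cfsg.Agent.Lib.Stein

open Module Cfsg.Agent.Lib.Forms

variable {F V A : Type*} [Field F] [AddCommGroup V] [Module F V] [AddCommGroup A]

/-- totally singular subspaces -/
def TS (β : V → V → F) (q : V → A) (X : Submodule F V) : Prop :=
  (∀ x ∈ X, q x = 0) ∧ ∀ x ∈ X, ∀ y ∈ X, β x y = 0

variable {σ : F → F} {β : V → V → F} {q : V → A} {φ : F → A}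

theorem TS.mono {X Y : Submodule F V} (hX : TS β q X) (hYX : Y ≤ X) : TS β q Y :=
  ⟨fun x hx => hX.1 x (hYX hx), fun x hx y hy => hX.2 x (hYX hx) y (hYX hy)⟩

theorem mem_aut_of_iso {g : V ≃ₗ[F] V} (hg : IsWittIso β q g) : g ∈ Aut (TS β q) := by
  intro X
  constructor
  · intro h
    exact ⟨fun x hx => by rw [← hg.2]; exact h.1 _ ⟨x, hx, rfl⟩,
      fun x hx y hy => by rw [← hg.1]; exact h.2 _ ⟨x, hx, rfl⟩ _ ⟨y, hy, rfl⟩⟩
  · intro h
    constructor
    · rintro _ ⟨x, hx, rfl⟩
      exact (hg.2 x).trans (h.1 x hx)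
    · rintro _ ⟨x, hx, rfl⟩ _ ⟨y, hy, rfl⟩
      exact (hg.1 x y).trans (h.2 x hx y hy)

variable (h : IsWittForm σ β q φ)
include h

theorem wf_self {x : V} (hx : q x = 0) : β x x = 0 := by
  rw [h.self x 0 (by rw [hx, h.q_zero]), h.zero_left]

theorem wf_smul_right_zero {x y : V} (hxy : β x y = 0) (a : F) : β x (a • y) = 0 := by
  rw [h.smul_right, hxy, mul_zero]

theorem wf_span_right {x : V} {s : Set V} (hs : ∀ y ∈ s, β x y = 0) {y : V}
    (hy : y ∈ Submodule.span F s) : β x y = 0 :=
  h.refl (lam_eq_zero_of_mem_span (lam := h.lin x) (fun y hy => h.refl (hs y hy)) hy)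

theorem ts_span {s : Set V} (h1 : ∀ x ∈ s, q x = 0) (h2 : ∀ x ∈ s, ∀ y ∈ s, β x y = 0) :
    TS β q (Submodule.span F s) := by
  have h3 : ∀ x ∈ Submodule.span F s, ∀ y ∈ Submodule.span F s, β x y = 0 := fun x hx y hy =>
    lam_eq_zero_of_mem_span (lam := h.lin y) (fun x hx => wf_span_right h (h2 x hx) hy) hx
  refine ⟨fun x hx => ?_, h3⟩
  induction hx using Submodule.span_induction with
  | mem x hx => exact h1 x hx
  | zero => exact h.q_zero
  | add x y hx hy ihx ihy => rw [h.q_add, ihx, ihy, h3 x hx y hy, h.φ_zero]; simp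
  | smul a x _ ih => exact h.q_smul_zero ih a

theorem ts_sup {X : Submodule F V} (hX : TS β q X) {x : V} (hx : q x = 0)
    (hp : ∀ y ∈ X, β x y = 0) : TS β q (X ⊔ F ∙ x) := by
  have : X ⊔ F ∙ x = Submodule.span F (insert x (X : Set V)) := by
    rw [Submodule.span_insert, Submodule.span_eq, sup_comm]
  rw [this]
  refine ts_span h ?_ ?_
  · rintro y (rfl | hy)
    · exact hx
    · exact hX.1 y hy
  · rintro y (rfl | hy) z (rfl | hz)
    · exact wf_self h hx
    · exact hp z hz
    · exact h.refl (hp y hy)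
    · exact hX.2 y hy z hz

theorem mem_of_max [FiniteDimensional F V] {r : ℕ} (hr : ∀ X, TS β q X → finrank F X ≤ r)
    {X : Submodule F V} (hX : TS β q X) (hd : finrank F X = r) {x : V} (hx : q x = 0)
    (hp : ∀ y ∈ X, β x y = 0) : x ∈ X := by
  have := Submodule.eq_of_le_of_finrank_le (le_sup_left : X ≤ X ⊔ F ∙ x)
    (hd ▸ hr _ (ts_sup h hX hx hp))
  rw [this]
  exact Submodule.mem_sup_right (Submodule.mem_span_singleton_self x)

theorem exists_adjust {e y : V} (he : q e = 0) (hy : β y e ≠ 0) : ∃ t : F, q (y + t • e) = 0 := by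
  obtain ⟨s, hs⟩ := h.range y 0
  obtain ⟨t, ht⟩ := h.σ_surj (s / β y e)
  refine ⟨t, ?_⟩
  rw [h.q_add, h.q_smul_zero he, h.smul_right, ht, div_mul_cancel₀ _ hy, add_zero, hs, h.q_zero]

theorem mem_of_perp_perp {X : Submodule F V} {v : V}
    (hv : ∀ z, (∀ y ∈ X, β z y = 0) → β v z = 0) : v ∈ X := by
  by_contra hn
  obtain ⟨l, hl, hlX⟩ := Submodule.exists_dual_map_eq_bot_of_notMem hn inferInstance
  obtain ⟨z, hz⟩ := h.repr l
  refine hl (by
    rw [← hz]
    refine hv z fun y hy => h.refl ?_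
    rw [hz]
    have : l y ∈ X.map l := Submodule.mem_map_of_mem hy
    rwa [hlX, Submodule.mem_bot] at this)

theorem wf_sum_right {ι : Type*} (s : Finset ι) (x : V) (y : ι → V) :
    β x (∑ i ∈ s, y i) = ∑ i ∈ s, β x (y i) := by
  classical
  induction s using Finset.induction_on with
  | empty => simp [h.zero_right]
  | insert i s hi ih => rw [Finset.sum_insert hi, Finset.sum_insert hi, h.add_right, ih]

theorem exists_frame {r : ℕ} (e : ℕ → V) (he : LinearIndependent F fun t : Fin r => e t)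
    (he1 : ∀ i < r, q (e i) = 0) (he2 : ∀ i < r, ∀ j < r, β (e i) (e j) = 0) :
    ∃ f : ℕ → V, (∀ i < r, ∀ j < r, β (e i) (f j) = if i = j then 1 else 0) ∧
      (∀ j < r, q (f j) = 0) ∧ ∀ i < r, ∀ j < r, β (f i) (f j) = 0 := by
  classical
  suffices H : ∀ m ≤ r, ∃ f : ℕ → V, (∀ i < r, ∀ j < m, β (e i) (f j) = if i = j then 1 else 0) ∧
      (∀ j < m, q (f j) = 0) ∧ ∀ i < m, ∀ j < m, β (f i) (f j) = 0 from H r le_rfl
  intro m hm
  induction m with
  | zero => exact ⟨e, by simp, by simp, by simp⟩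
  | succ m ih =>
    obtain ⟨f, h1, h2, h3⟩ := ih (by omega)
    obtain ⟨l, hl⟩ : ∃ l : Module.Dual F V, ∀ t : Fin r, l (e t) = if (t : ℕ) = m then 1 else 0 := by
      obtain ⟨l, hl⟩ := LinearMap.exists_extend
        ((Basis.span he).constr F fun t : Fin r => if (t : ℕ) = m then (1 : F) else 0)
      refine ⟨l, fun t => ?_⟩
      have := congrArg (fun L => L (Basis.span he t)) hl
      simp only [Basis.constr_basis] at this
      rw [← this, LinearMap.comp_apply, Submodule.subtype_apply, Basis.span_apply]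
    obtain ⟨z, hz⟩ := h.repr l
    have hκ : ∀ i < m, β (f i) (e i) ≠ 0 := fun i hi h0 => by
      have := h.refl h0
      rw [h1 i (by omega) i hi, if_pos rfl] at this
      exact one_ne_zero this
    choose c hc using fun i => h.σ_surj (β (f i) z / β (f i) (e i))
    let z1 := z - ∑ i ∈ Finset.range m, c i • e i
    have hz1 : ∀ i < r, β (e i) z1 = if i = m then 1 else 0 := by
      intro i hi
      rw [h.sub_right, hz, hl ⟨i, hi⟩, wf_sum_right h, Finset.sum_eq_zero, sub_zero]
      intro j hj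
      exact wf_smul_right_zero h (he2 i hi j (by have := Finset.mem_range.1 hj; omega)) _
    have hz2 : ∀ i < m, β (f i) z1 = 0 := by
      intro i hi
      rw [h.sub_right, wf_sum_right h, Finset.sum_eq_single i, h.smul_right, hc,
        div_mul_cancel₀ _ (hκ i hi), sub_self]
      · intro j hj hji
        have hj := Finset.mem_range.1 hj
        exact wf_smul_right_zero h (h.refl (by rw [h1 j (by omega) i hi, if_neg hji])) _
      · intro hn; exact absurd (Finset.mem_range.2 hi) hn
    obtain ⟨t, ht⟩ := exists_adjust h (he1 m hm) (y := z1) fun h0 => by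
      have := h.refl h0
      rw [hz1 m hm, if_pos rfl] at this
      exact one_ne_zero this
    have hz3 : ∀ i < m, β (f i) (z1 + t • e m) = 0 := by
      intro i hi
      rw [h.add_right, hz2 i hi, wf_smul_right_zero h (h.refl (by
        rw [h1 m hm i hi, if_neg (by omega)])), add_zero]
    refine ⟨Function.update f m (z1 + t • e m), fun i hi j hj => ?_, fun j hj => ?_,
      fun i hi j hj => ?_⟩
    · rcases (Nat.lt_succ_iff.1 hj).eq_or_lt with rfl | hj
      · rw [Function.update_self, h.add_right, hz1 i hi, wf_smul_right_zero h (he2 i hi j hm),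
          add_zero]
      · rw [Function.update_of_ne hj.ne, h1 i hi j hj]
    · rcases (Nat.lt_succ_iff.1 hj).eq_or_lt with rfl | hj
      · rwa [Function.update_self]
      · rw [Function.update_of_ne hj.ne, h2 j hj]
    · rcases (Nat.lt_succ_iff.1 hj).eq_or_lt with rfl | hj <;>
        rcases (Nat.lt_succ_iff.1 hi).eq_or_lt with hi | hi
      · rw [hi, Function.update_self, wf_self h ht]
      · rw [Function.update_self, Function.update_of_ne hi.ne, hz3 i hi]
      · rw [hi, Function.update_self, Function.update_of_ne hj.ne, h.refl (hz3 j hj)]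
      · rw [Function.update_of_ne hj.ne, Function.update_of_ne hi.ne, h3 i hi j hj]

/-- the Eichler map fixing `e` and sending `f` to `f + w` -/
theorem exists_eich [FiniteDimensional F V] {e f w : V} (he : q e = 0) (hf : q f = 0)
    (hef : β e f = 1) (hw : β w e = 0) (hq : q (f + w) = 0) :
    ∃ g : V ≃ₗ[F] V, IsWittIso β q g ∧
      ∀ y, g y = y - β y w • e + ((β f e)⁻¹ * β y e) • (w + β f w • e) := by
  have hκ : β f e ≠ 0 := fun h0 => by
    have := h.refl h0
    rw [hef] at this
    exact one_ne_zero this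
  let T : V →ₗ[F] V := LinearMap.id - (h.lin w).smulRight e +
    ((β f e)⁻¹ • h.lin e).smulRight (w + β f w • e)
  have hT : ∀ y, T y = y - β y w • e + ((β f e)⁻¹ * β y e) • (w + β f w • e) := fun y => rfl
  have hT0 : ∀ y, β y e = 0 → T y = y - β y w • e := fun y hy => by
    rw [hT, hy]; simp
  have hTf : T f = f + w := by
    rw [hT, inv_mul_cancel₀ hκ, one_smul]; abel
  have hiso : IsWittIso β q T := by
    refine h.iso_of_hyperplane hκ (fun a b ha hb => ?_) (fun a ha => ?_) (fun a ha => ?_) ?_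
    · rw [hT0 a ha, hT0 b hb, h.sub_left, h.sub_right, h.sub_right, wf_smul_right_zero h ha,
        h.smul_left, h.smul_left, h.refl hb, wf_smul_right_zero h (wf_self h he)]
      simp
    · rw [hT0 a ha, sub_eq_add_neg, ← neg_smul, h.q_add, h.q_smul_zero he, wf_smul_right_zero h ha,
        h.φ_zero]
      simp
    · rw [hT0 a ha, hTf, h.sub_left, h.smul_left, h.add_right, h.add_right, hef, h.refl hw]
      ring
    · rw [hTf, hq, hf]
  exact ⟨LinearEquiv.ofInjectiveEndo T (h.injective_of_iso hiso.1), hiso, hT⟩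

/-- the orthogonal complement -/
def perpW (X : Submodule F V) : Submodule F V where
  carrier := {x | ∀ y ∈ X, β x y = 0}
  zero_mem' y _ := h.zero_left y
  add_mem' {a b} ha hb y hy := by rw [h.add_left, ha y hy, hb y hy, add_zero]
  smul_mem' c a ha y hy := by rw [h.smul_left, ha y hy, mul_zero]

theorem mem_perpW {X : Submodule F V} {x : V} : x ∈ perpW h X ↔ ∀ y ∈ X, β x y = 0 := Iff.rfl

omit h in
theorem li_of_dual {r : ℕ} (v : ℕ → V) (l : ℕ → Module.Dual F V)
    (hl : ∀ s < r, ∀ t < r, l s (v t) = if s = t then 1 else 0) :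
    LinearIndependent F fun t : Fin r => v t := by
  rw [Fintype.linearIndependent_iff]
  intro g hg s
  have := congrArg (l s) hg
  rw [map_sum, map_zero, Finset.sum_eq_single s] at this
  · simpa [hl s s.2 s s.2] using this
  · intro t _ hts
    rw [map_smul, hl s s.2 t t.2, if_neg (fun h => hts (Fin.ext h).symm), smul_zero]
  · simp

omit h in
theorem exists_mem_ker [FiniteDimensional F V] {X : Submodule F V} {i : ℕ} (hX : i < finrank F X)
    (l : ℕ → Module.Dual F V) : ∃ x ∈ X, x ≠ 0 ∧ ∀ t < i, l t x = 0 := by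
  let L : X →ₗ[F] (Fin i → F) := LinearMap.pi fun t : Fin i => (l t) ∘ₗ X.subtype
  have : LinearMap.ker L ≠ ⊥ := LinearMap.ker_ne_bot_of_finrank_lt (by simpa using hX)
  obtain ⟨x, hx, hx0⟩ := Submodule.exists_mem_ne_zero_of_ne_bot this
  exact ⟨x, x.2, fun h => hx0 (Subtype.ext h), fun t ht => congrFun (LinearMap.mem_ker.1 hx) ⟨t, ht⟩⟩

end Cfsg.Agent.Lib.Stein
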