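import Cfsg.Agent.Lib.Stein.Polar1

/-!
The Steinberg character for groups of isometries of a Witt form.
-/

set_option autoImplicit false

namespace Cfsg.Agent.Lib.Stein

open Module Cfsg.Agent.Lib.Forms

variable {F V A : Type*} [Field F] [AddCommGroup V] [Module F V] [AddCommGroup A]
variable {σ : F → F} {β : V → V → F} {q : V → A} {φ : F → A}

/-- a sign vector as a function on `ℕ` -/
def ep {r : ℕ} (ε : Fin r → ℤˣ) (t : ℕ) : ℤˣ := if h : t < r then ε ⟨t, h⟩ else 1

/-- the positions of the frame vectors for a signed permutation -/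
def sq {r : ℕ} (w : Equiv.Perm (Fin r) × (Fin r → ℤˣ)) (t : ℕ) : ℕ :=
  if ep w.2 t = 1 then pe w.1 t else 2 * r - 1 - pe w.1 t

theorem sq_lt {r : ℕ} (w : Equiv.Perm (Fin r) × (Fin r → ℤˣ)) {t : ℕ} (ht : t < r) :
    sq w t < 2 * r := by
  have := pe_lt w.1 ht
  unfold sq; split_ifs <;> omega

theorem sq_inj {r : ℕ} (w : Equiv.Perm (Fin r) × (Fin r → ℤˣ)) {s t : ℕ} (hs : s < r) (ht : t < r)
    (h : sq w s = sq w t) : s = t := by
  have h1 := pe_lt w.1 ht
  have h2 := pe_lt w.1 hs
  refine pe_inj w.1 hs ht ?_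
  unfold sq at h; split_ifs at h <;> omega

theorem ep_swap {r : ℕ} (ε : Fin r → ℤˣ) {i : ℕ} (hi : i + 1 < r) {t : ℕ} (ht : t < r) :
    ep (ε ∘ Equiv.swap ⟨i, by omega⟩ ⟨i + 1, hi⟩) t = ep ε (Equiv.swap i (i + 1) t) := by
  have : Equiv.swap i (i + 1) t < r := by
    rw [Equiv.swap_apply_def]
    split_ifs <;> omega
  rw [ep, ep, dif_pos ht, dif_pos this, Function.comp_apply]
  congr 1
  simp only [Equiv.swap_apply_def, Fin.ext_iff]
  split_ifs <;> rfl

set_option maxHeartbeats 4000000 in
theorem hasSt_polar [Finite V] [FiniteDimensional F V] {p : ℕ} [Fact p.Prime] [CharP F p]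
    (h : IsWittForm σ β q φ) {G : Type*} [Group G] [Finite G] (ρ : G →* (V ≃ₗ[F] V))
    (hρ : Function.Injective ρ) (hiso : ∀ g, IsWittIso β q (ρ g))
    (hE : ∀ (g : V ≃ₗ[F] V) (e : V), IsWittIso β q g → q e = 0 → e ≠ 0 → g e = e →
      (∀ y, β y e = 0 → g y - y ∈ F ∙ e) → (∃ k, g ^ p ^ k = 1) → g ∈ ρ.range)
    (hK : ∀ g : G, g ^ p = 1 → (∀ y, q (ρ g y - y) = 0 → ρ g y = y) → g = 1)
    (hD : ∀ (g : G) (E : Submodule F V), TS β q E → (∀ x, (∀ y ∈ E, β x y = 0) → x ∈ E) →
      finrank F (E ⊓ E.map (ρ g : V →ₗ[F] V) : Submodule F V) + 1 = finrank F E →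
      ∃ s : F, s ≠ 0 ∧ φ s = 0) :
    HasSt p (G ⧸ Subgroup.center G) := by
  classical
  obtain ⟨r, ⟨X0, hX0, hX0r⟩, hr⟩ : ∃ r, (∃ X : Submodule F V, TS β q X ∧ finrank F X = r) ∧
      ∀ X : Submodule F V, TS β q X → finrank F X ≤ r := by
    refine ⟨Nat.findGreatest (fun r => ∃ X : Submodule F V, TS β q X ∧ finrank F X = r)
      (finrank F V), Nat.findGreatest_spec
        (P := fun r => ∃ X : Submodule F V, TS β q X ∧ finrank F X = r)
        (m := 0) (Nat.zero_le _) ⟨⊥, ⟨?_, ?_⟩, finrank_bot F V⟩,
      fun X hX => Nat.le_findGreatest (Submodule.finrank_le X) ⟨X, hX, rfl⟩⟩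
    · intro x hx; rw [(Submodule.mem_bot F).1 hx, h.q_zero]
    · intro x hx y _; rw [(Submodule.mem_bot F).1 hx, h.zero_left]
  let ρ' : G →* Aut (TS β q) := ρ.codRestrict _ fun g => mem_aut_of_iso (hiso g)
  letI : MulAction G (Ch (TS β q) r) := MulAction.compHom _ ρ'
  have hmem : ∀ (g : G) (c : Ch (TS β q) r) i x, ρ g x ∈ (g • c).sp i ↔ x ∈ c.sp i :=
    fun g c i x => mem_smul_sp (ρ' g) c i x
  have hts : ∀ (c : Ch (TS β q) r) i, TS β q (c.sp i) := fun c i => c.adm.mono (c.le_top i)
  have hmax : ∀ (c : Ch (TS β q) r) x, q x = 0 → (∀ y ∈ c.sp r, β x y = 0) → x ∈ c.sp r :=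
    fun c x hx hp => mem_of_max h hr c.adm (c.dim r le_rfl) hx hp
  have key : ∀ c0 : Ch (TS β q) r, ∃ (d : Ch (TS β q) r) (O : Set (Ch (TS β q) r))
      (U : Subgroup G), Base p c0 d O U ∧
      (∀ f ∈ St (TS β q) r {i | 1 ≤ i ∧ i ≤ r}, (∀ c ∈ O, f c = 0) → f = 0) ∧
      ∃ f0 ∈ St (TS β q) r {i | 1 ≤ i ∧ i ≤ r}, f0 d = 1 ∧ ∀ c ∈ O, c ≠ d → f0 c = 0 := by
    intro c0
    obtain ⟨e, he, hc0⟩ := exists_seq c0
    have he0 : ∀ t < r, e t ∈ c0.sp (t + 1) := by
      intro t ht
      rw [hc0 _ ht]
      exact Submodule.subset_span ⟨t, Nat.lt_succ_self t, rfl⟩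
    have heE : ∀ t < r, e t ∈ c0.sp r := fun t ht => c0.le_top _ (he0 t ht)
    have hqe : ∀ t < r, q (e t) = 0 := fun t ht => c0.adm.1 _ (heE t ht)
    have hee : ∀ s < r, ∀ t < r, β (e s) (e t) = 0 := fun s hs t ht =>
      c0.adm.2 _ (heE s hs) _ (heE t ht)
    obtain ⟨f, hef, hqf, hff⟩ := exists_frame h e he hqe hee
    have hκ : ∀ i < r, β (f i) (e i) ≠ 0 := fun i hi h0 => by
      have := h.refl h0
      rw [hef i hi i hi, if_pos rfl] at this
      exact one_ne_zero this
    have hfe : ∀ s < r, ∀ t < r, s ≠ t → β (f s) (e t) = 0 := fun s hs t ht hst =>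
      h.refl (by rw [hef t ht s hs, if_neg hst.symm])
    have hperp : ∀ i ≤ r, ∀ x, (∀ y ∈ c0.sp i, β x y = 0) ↔ ∀ t < i, β x (e t) = 0 := by
      intro i hi x
      refine ⟨fun H t ht => H _ (c0.mono ht (he0 t (by omega))), fun H y hy => ?_⟩
      rw [hc0 i hi] at hy
      refine wf_span_right h ?_ hy
      rintro _ ⟨t, ht, rfl⟩
      exact H t ht
    have hEzero : ∀ x ∈ c0.sp r, (∀ t < r, β x (f t) = 0) → x = 0 := by
      intro x hx H
      have e1 : e '' {t | t < r} = Set.range fun t : Fin r => e t := by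
        ext x
        exact ⟨fun ⟨t, ht, e⟩ => ⟨⟨t, ht⟩, e⟩, fun ⟨t, e⟩ => ⟨t, t.2, e⟩⟩
      rw [hc0 r le_rfl, e1, Submodule.mem_span_range_iff_exists_fun] at hx
      obtain ⟨c, rfl⟩ := hx
      refine Finset.sum_eq_zero fun t _ => ?_
      have := H t t.2
      rw [← h.lin_apply, map_sum, Finset.sum_eq_single t] at this
      · rw [map_smul, h.lin_apply, hef t t.2 t t.2, if_pos rfl, smul_eq_mul, mul_one] at this
        rw [this, zero_smul]
      · intro s _ hst
        rw [map_smul, h.lin_apply, hef s s.2 t t.2, if_neg (fun h => hst (Fin.ext h)), smul_zero]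
      · simp
    have hKv : ∀ x, q x = 0 → (∀ t < r, β x (e t) = 0) → (∀ t < r, β x (f t) = 0) → x = 0 :=
      fun x hx h1 h2 => hEzero x (hmax c0 x hx ((hperp r le_rfl x).2 h1)) h2
    let lam : ℕ → Module.Dual F V := fun k => if k < r then h.lin (f k) else
      (β (f (2 * r - 1 - k)) (e (2 * r - 1 - k)))⁻¹ • h.lin (e (2 * r - 1 - k))
    let a : ℕ → V := fun j => if j < r then e j else f (2 * r - 1 - j)
    have hlam1 : ∀ k < r, ∀ x, lam k x = β x (f k) := fun k hk x => by simp [lam, hk]
    have hlam2 : ∀ t < r, ∀ x, lam (2 * r - 1 - t) x = (β (f t) (e t))⁻¹ * β x (e t) := by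
      intro t ht x
      simp only [lam, if_neg (show ¬ 2 * r - 1 - t < r by omega),
        show 2 * r - 1 - (2 * r - 1 - t) = t by omega, LinearMap.smul_apply, h.lin_apply,
        smul_eq_mul]
    have ha1 : ∀ k < r, a k = e k := fun k hk => by simp [a, hk]
    have ha2 : ∀ t < r, a (2 * r - 1 - t) = f t := fun t ht => by
      simp only [a, if_neg (show ¬ 2 * r - 1 - t < r by omega),
        show 2 * r - 1 - (2 * r - 1 - t) = t by omega]
    have hsplit : ∀ k < 2 * r, k < r ∨ ∃ t < r, k = 2 * r - 1 - t := fun k hk => by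
      by_cases hk' : k < r
      · exact Or.inl hk'
      · exact Or.inr ⟨2 * r - 1 - k, by omega, by omega⟩
    have hlam : ∀ j < 2 * r, ∀ k < 2 * r, lam k (a j) = if k = j then 1 else 0 := by
      intro j hj k hk
      rcases hsplit j hj with hj' | ⟨s, hs, rfl⟩ <;> rcases hsplit k hk with hk' | ⟨t, ht, rfl⟩
      · rw [ha1 j hj', hlam1 k hk', hef j hj' k hk']; simp [eq_comm]
      · rw [ha1 j hj', hlam2 t ht, hee j hj' t ht, if_neg (by omega), mul_zero]
      · rw [ha2 s hs, hlam1 k hk', hff s hs k hk', if_neg (by omega)]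
      · rw [ha2 s hs, hlam2 t ht]
        by_cases hst : s = t
        · rw [hst, if_pos rfl, inv_mul_cancel₀ (hκ t ht)]
        · rw [hfe s hs t ht hst, if_neg (by omega), mul_zero]
    have hO : ∀ i ≤ r, ∀ x, (∀ k, 2 * r - i ≤ k → k < 2 * r → lam k x = 0) ↔
        ∀ y ∈ c0.sp i, β x y = 0 := by
      intro i hi x
      rw [hperp i hi]
      constructor
      · intro H t ht
        have := H (2 * r - 1 - t) (by omega) (by omega)
        rw [hlam2 t (by omega)] at this
        exact (mul_eq_zero.1 this).resolve_left (inv_ne_zero (hκ t (by omega)))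
      · intro H k hk hk'
        rw [show k = 2 * r - 1 - (2 * r - 1 - k) by omega, hlam2 _ (by omega), H _ (by omega),
          mul_zero]
    have hOpp : ∀ c : Ch (TS β q) r, c ∈ Opp lam (2 * r) (TS β q) r ↔
        ∀ i ≤ r, ∀ x ∈ c.sp i, (∀ y ∈ c0.sp i, β x y = 0) → x = 0 := fun c =>
      forall₂_congr fun i hi => forall₂_congr fun x _ => by rw [hO i hi]
    have hasq : ∀ (w : Equiv.Perm (Fin r) × (Fin r → ℤˣ)), ∀ t < r,
        a (sq w t) = if ep w.2 t = 1 then e (pe w.1 t) else f (pe w.1 t) := by
      intro w t ht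
      unfold sq
      split_ifs
      · exact ha1 _ (pe_lt _ ht)
      · exact ha2 _ (pe_lt _ ht)
    let ch : Equiv.Perm (Fin r) × (Fin r → ℤˣ) → Ch (TS β q) r := fun w =>
      flagOf (fun t => a (sq w t)) (li_of_dual (fun t => a (sq w t)) (fun s => lam (sq w s))
        fun s hs t ht => by
          rw [hlam _ (sq_lt w ht) _ (sq_lt w hs)]
          exact if_congr ⟨sq_inj w hs ht, fun h => by rw [h]⟩ rfl rfl)
        (ts_span h (by
          rintro _ ⟨t, ht, rfl⟩
          simp only
          rw [hasq w t ht]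
          split_ifs
          · exact hqe _ (pe_lt _ ht)
          · exact hqf _ (pe_lt _ ht)) (by
          rintro _ ⟨s, hs, rfl⟩ _ ⟨t, ht, rfl⟩
          simp only
          rw [hasq w t ht, hasq w s hs]
          by_cases hst : s = t
          · subst hst
            split_ifs
            · exact hee _ (pe_lt _ hs) _ (pe_lt _ hs)
            · exact hff _ (pe_lt _ hs) _ (pe_lt _ hs)
          have hne : pe w.1 s ≠ pe w.1 t := fun h => hst (pe_inj _ hs ht h)
          split_ifs
          · exact hee _ (pe_lt _ hs) _ (pe_lt _ ht)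
          · rw [hef _ (pe_lt _ hs) _ (pe_lt _ ht), if_neg hne]
          · exact hfe _ (pe_lt _ hs) _ (pe_lt _ ht) hne
          · exact hff _ (pe_lt _ hs) _ (pe_lt _ ht)))
    let w0 : Equiv.Perm (Fin r) × (Fin r → ℤˣ) := (1, fun _ => -1)
    have hw0 : ∀ t < r, sq w0 t = 2 * r - 1 - t := by
      intro t ht
      simp [sq, w0, ep, pe, ht]
    let d := ch w0
    have hd : ∀ i ≤ r, d.sp i = Submodule.span F (f '' {t | t < i}) := by
      intro i hi
      change (flagOf _ _ _).sp _ = _
      rw [flagOf_sp _ _ _ hi]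
      congr 1
      refine Set.image_congr fun t ht => ?_
      have ht : t < i := ht
      rw [hw0 t (by omega), ha2 t (by omega)]
    have hf0 : ∀ t < r, f t ∈ d.sp (t + 1) := by
      intro t ht
      rw [hd _ ht]
      exact Submodule.subset_span ⟨t, Nat.lt_succ_self t, rfl⟩
    have hde : ∀ i ≤ r, ∀ x ∈ d.sp i, ∀ t, i ≤ t → t < r → β x (e t) = 0 := by
      intro i hi x hx t hit ht
      rw [hd i hi] at hx
      refine lam_eq_zero_of_mem_span (lam := h.lin (e t)) ?_ hx
      rintro _ ⟨s, hs, rfl⟩
      have hs : s < i := hs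
      exact hfe s (by omega) t ht (by omega)
    have hcf : ∀ i ≤ r, ∀ x ∈ c0.sp i, ∀ t, i ≤ t → t < r → β x (f t) = 0 := by
      intro i hi x hx t hit ht
      rw [hc0 i hi] at hx
      refine lam_eq_zero_of_mem_span (lam := h.lin (f t)) ?_ hx
      rintro _ ⟨s, hs, rfl⟩
      have hs : s < i := hs
      rw [h.lin_apply, hef s (by omega) t ht, if_neg (by omega)]
    have hdO : d ∈ Opp lam (2 * r) (TS β q) r := by
      rw [hOpp]
      intro i hi x hx H
      refine hKv x ((hts d i).1 x hx) (fun t ht => ?_) fun t ht =>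
        d.adm.2 x (d.le_top _ hx) _ (d.le_top _ (hf0 t ht))
      by_cases hti : t < i
      · exact (hperp i hi x).1 H t hti
      · exact hde i hi x hx t (not_lt.1 hti) ht
    let M : ℕ → Submodule F V := fun j => if j ≤ r then c0.sp j else perpW h (c0.sp (2 * r + 1 - j))
    have hM1 : ∀ j ≤ r, M j = c0.sp j := fun j hj => if_pos hj
    have hM2 : ∀ j, r < j → M j = perpW h (c0.sp (2 * r + 1 - j)) := fun j hj => if_neg (by omega)
    have hEp : ∀ i j, c0.sp i ≤ perpW h (c0.sp j) := fun i j x hx y hy =>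
      c0.adm.2 x (c0.le_top _ hx) y (c0.le_top _ hy)
    have hMm : Monotone M := by
      intro i j hij
      by_cases hj : j ≤ r
      · rw [hM1 i (hij.trans hj), hM1 j hj]; exact c0.mono hij
      rw [hM2 j (by omega)]
      by_cases hi : i ≤ r
      · rw [hM1 i hi]; exact hEp _ _
      · rw [hM2 i (by omega)]
        exact fun x hx y hy => hx y (c0.mono (by omega) hy)
    have hM0 : M 0 = ⊥ := by rw [hM1 0 (Nat.zero_le _), c0.zero]
    have hMt : M (2 * r + 1) = ⊤ := by
      rw [hM2 _ (by omega), Nat.sub_self, c0.zero]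
      refine eq_top_iff.2 fun x _ y hy => ?_
      rw [(Submodule.mem_bot F).1 hy, h.zero_right]
    let U : Subgroup G := (chainGrp M hMm).comap ρ
    have hU : ∀ i < r, ∀ w, (∀ y ∈ c0.sp (i + 1), β w y = 0) → q (f i + w) = 0 →
        ∃ u ∈ U, ∀ y, ρ u y = y - β y w • e i +
          ((β (f i) (e i))⁻¹ * β y (e i)) • (w + β (f i) w • e i) := by
      intro i hi w hw hq
      obtain ⟨g, hg, hg'⟩ := exists_eich h (hqe i hi) (hqf i hi) (by rw [hef i hi i hi, if_pos rfl])
        (hw _ (he0 i hi)) hq
      have hz : w + β (f i) w • e i ∈ perpW h (c0.sp (i + 1)) :=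
        add_mem hw (Submodule.smul_mem _ _ (hEp _ _ (heE i hi)))
      have hch : g ∈ chainGrp M hMm := by
        intro j y hy
        rw [hg', add_sub_right_comm, sub_sub_cancel_left]
        by_cases hj : j + 1 ≤ r
        · rw [hM1 _ hj] at hy
          rw [hM1 _ (by omega), hEp _ _ hy _ (heE i hi), mul_zero, zero_smul, add_zero]
          by_cases hij : j ≤ i
          · rw [h.refl (hw y (c0.mono (by omega) hy))]; simp
          · exact neg_mem (Submodule.smul_mem _ _ (c0.mono (by omega) (he0 i hi)))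
        rw [hM2 _ (by omega)] at hy
        refine add_mem (neg_mem (Submodule.smul_mem _ _ (hMm (show r ≤ j by omega)
          (by rw [hM1 r le_rfl]; exact heE i hi)))) ?_
        by_cases hij : i + 1 ≤ 2 * r + 1 - (j + 1)
        · rw [hy _ (c0.mono hij (he0 i hi))]; simp
        · rw [hM2 _ (by omega)]
          exact Submodule.smul_mem _ _ fun y hy => hz y (c0.mono (by omega) hy)
      obtain ⟨u, hu⟩ := hE g (e i) hg (hqe i hi) (fun h0 => hκ i hi (by rw [h0, h.zero_right]))
        (by rw [hg', h.refl (hw _ (he0 i hi)), hee i hi i hi]; simp)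
        (fun y hy => by
          rw [hg', hy, mul_zero, zero_smul, add_zero, sub_sub_cancel_left]
          exact neg_mem (Submodule.smul_mem _ _ (Submodule.mem_span_singleton_self _)))
        ⟨_, pow_eq_one_of_chain M _ hM0 hMt g hch⟩
      refine ⟨u, ?_, fun y => by rw [hu, hg']⟩
      change ρ u ∈ chainGrp M hMm
      rwa [hu]
    have hfix : ∀ u ∈ U, u • c0 = c0 := by
      intro u hu
      refine smul_eq_of_mem fun i hi x hx => ?_
      cases i with
      | zero => rw [c0.zero] at hx ⊢; simpa using hx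
      | succ i =>
        change ρ u x ∈ _
        have := hu i x (by rwa [hM1 _ hi])
        rw [hM1 _ (by omega)] at this
        simpa using add_mem (c0.mono (Nat.le_succ i) this) hx
    have hstab : ∀ g : G, g • c0 = c0 → ∀ c ∈ Opp lam (2 * r) (TS β q) r,
        g • c ∈ Opp lam (2 * r) (TS β q) r := by
      intro g hg c hc
      rw [hOpp] at hc ⊢
      intro i hi x hx H
      obtain ⟨y, rfl⟩ := (ρ g).surjective x
      rw [hmem] at hx
      rw [hc i hi y hx fun z hz => ?_, map_zero]
      rw [← (hiso g).1]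
      exact H _ (by rw [← hg, hmem]; exact hz)
    refine ⟨d, Opp lam (2 * r) _ r, U, ⟨?_, hfix, hstab, hdO, ?_, ?_, ?_⟩, ?_, ?_⟩
    · intro u
      refine ⟨2 * r + 1, Subtype.ext (hρ ?_)⟩
      simpa using pow_eq_one_of_chain M _ hM0 hMt _ u.2
    · intro c hc
      suffices H : ∀ i ≤ r, ∃ u ∈ U, ∀ t ≤ i, (u • d).sp t = c.sp t by
        obtain ⟨u, hu, H⟩ := H r le_rfl
        exact ⟨u, hu, Ch.ext' H⟩
      intro i hi
      induction i with
      | zero => exact ⟨1, one_mem _, fun t ht => by rw [Nat.le_zero.1 ht, Ch.zero, Ch.zero]⟩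
      | succ i ih =>
        obtain ⟨u, hu, H⟩ := ih (by omega)
        set c1 := u⁻¹ • c with hc1
        have hc1O := (hOpp c1).1 (hstab _ (hfix _ (inv_mem hu)) c hc)
        have H1 : ∀ t ≤ i, d.sp t = c1.sp t := by
          intro t ht
          ext x
          rw [← hmem u, ← hmem u c1, hc1, smul_inv_smul, H t ht]
        obtain ⟨y, hy, hy0, hy1⟩ := exists_mem_ker (X := c1.sp (i + 1)) (i := i)
          (by rw [c1.dim _ hi]; omega) fun t => h.lin (e t)
        have hy2 : β y (e i) ≠ 0 := fun h0 => hy0 (hc1O _ hi y hy ((hperp _ hi y).2 fun t ht => by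
          rcases (Nat.lt_succ_iff.1 ht).eq_or_lt with rfl | ht
          · exact h0
          · exact hy1 t ht))
        let f' := (β (f i) (e i) / β y (e i)) • y
        have hf' : f' ∈ c1.sp (i + 1) := Submodule.smul_mem _ _ hy
        have hfc : ∀ t < i, f t ∈ c1.sp (t + 1) := fun t ht => by
          rw [← H1 _ ht]; exact hf0 t (by omega)
        obtain ⟨v, hv, hv'⟩ := hU i hi (f' - f i) ((hperp _ hi _).2 fun t ht => by
          rw [h.sub_left, h.smul_left]
          rcases (Nat.lt_succ_iff.1 ht).eq_or_lt with rfl | ht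
          · rw [div_mul_cancel₀ _ hy2, sub_self]
          · rw [hfe i hi t (by omega) ht.ne', show β y (e t) = 0 from hy1 t ht]; simp)
          (by rw [add_sub_cancel]; exact (hts c1 _).1 _ hf')
        have hvf : ∀ t < i + 1, ρ v (f t) ∈ c1.sp (t + 1) := by
          intro t ht
          rw [hv']
          rcases (Nat.lt_succ_iff.1 ht).eq_or_lt with rfl | ht
          · rw [inv_mul_cancel₀ (hκ t hi), one_smul]
            convert hf' using 1
            abel
          · rw [hfe t (by omega) i hi ht.ne, h.sub_right, hff t (by omega) i hi,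
              (hts c1 (i + 1)).2 _ (c1.mono (by omega) (hfc t ht)) _ hf']
            simpa using hfc t ht
        refine ⟨u * v, mul_mem hu hv, fun t ht => ?_⟩
        have : (v • d).sp t = c1.sp t := by
          refine Submodule.eq_of_le_of_finrank_eq ?_
            (by rw [Ch.dim _ _ (by omega), Ch.dim _ _ (by omega)])
          change (d.sp t).map _ ≤ _
          rw [hd t (by omega), Submodule.map_span_le]
          rintro _ ⟨s, hs, rfl⟩
          have hs : s < t := hs
          exact c1.mono hs (hvf s (by omega))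
        ext x
        obtain ⟨x, rfl⟩ := (ρ u).surjective x
        rw [mul_smul, hmem, this, ← hmem u c1, hc1, smul_inv_smul]
    · intro g hg h0 hgd
      have hgp : ρ g ^ p = 1 := by rw [← map_pow, hg, map_one]
      have hinv : ∀ (c : Ch (TS β q) r), g • c = c → ∀ i, ∀ y ∈ c.sp i, ∃ y' ∈ c.sp i, ρ g y' = y := by
        intro c hc i y hy
        obtain ⟨y', rfl⟩ := (ρ g).surjective y
        rw [← hc, hmem] at hy
        exact ⟨y', hy, rfl⟩
      have hge : ∀ t < r, ρ g (e t) = e t := by
        intro t ht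
        have h1 : ρ g (e t) ∈ c0.sp (t + 1) := by rw [← h0, hmem]; exact he0 t ht
        refine eigen_eq_one (c := β (ρ g (e t)) (f t)) hgp ?_
        rw [← sub_eq_zero]
        refine hEzero _ (sub_mem (c0.le_top _ h1) (Submodule.smul_mem _ _ (heE t ht))) fun s hs => ?_
        rw [h.sub_left, h.smul_left, hef t ht s hs]
        rcases lt_trichotomy s t with hst | rfl | hst
        · obtain ⟨y, hy, hy'⟩ := hinv d hgd _ _ (hf0 s hs)
          rw [if_neg hst.ne', ← hy', (hiso g).1, h.refl (hde _ hs y hy t hst ht)]; simp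
        · simp
        · rw [if_neg hst.ne, hcf _ ht _ h1 s hst hs]; simp
      have hgf : ∀ t < r, ρ g (f t) = f t := by
        intro t ht
        have h1 : ρ g (f t) ∈ d.sp r := by rw [← hgd, hmem]; exact d.le_top _ (hf0 t ht)
        rw [← sub_eq_zero]
        refine (hOpp d).1 hdO r le_rfl _ (sub_mem h1 (d.le_top _ (hf0 t ht)))
          ((hperp r le_rfl _).2 fun s hs => ?_)
        rw [h.sub_left, ← hge s hs, (hiso g).1, hge s hs, sub_self]
      refine hK g hg fun y hy => sub_eq_zero.1 (hKv _ hy (fun t ht => ?_) fun t ht => ?_)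
      · rw [h.sub_left, ← hge t ht, (hiso g).1, hge t ht, sub_self]
      · rw [h.sub_left, ← hgf t ht, (hiso g).1, hgf t ht, sub_self]
    · intro g hg
      set c := g • c0 with hc
      have : ∀ i ≤ r, c.sp i = c0.sp i := by
        intro i hi
        induction i with
        | zero => rw [c.zero, c0.zero]
        | succ i ih =>
          have ih := ih (by omega)
          have hcod : finrank F (c.sp (i + 1)) = finrank F (c.sp i) + 1 := by
            rw [c.dim _ hi, c.dim i (by omega)]
          suffices h3 : e i ∈ c.sp (i + 1) by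
            refine (Submodule.eq_of_le_of_finrank_eq ?_ (by rw [c.dim _ hi, c0.dim _ hi])).symm
            rw [hc0 _ hi, Submodule.span_le]
            rintro _ ⟨t, ht, rfl⟩
            rcases (Nat.lt_succ_iff.1 ht).eq_or_lt with rfl | ht
            · exact h3
            · refine c.mono (Nat.le_succ i) ?_
              rw [ih]
              exact c0.mono ht (he0 t (by omega))
          by_contra hne
          obtain ⟨v, hv, hvn⟩ := exists_notMem_of_codim_one hcod
          have hmove : ∀ w, (∀ y ∈ c0.sp (i + 1), β w y = 0) → q (f i + w) = 0 →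
              ((β (f i) (e i))⁻¹ * β v (e i)) • (w + β (f i) w • e i) - β v w • e i ∈
                c.sp (i + 1) := by
            intro w hw hq
            obtain ⟨u, hu, hu'⟩ := hU i hi w hw hq
            have h2 : ρ u v ∈ c.sp (i + 1) := by rw [← hg u hu, hmem]; exact hv
            rw [hu'] at h2
            convert sub_mem h2 hv using 1
            abel
          have hadj : ∀ x, (∀ y ∈ c0.sp (i + 1), β x y = 0) → ∃ t : F,
              (∀ y ∈ c0.sp (i + 1), β (x + t • e i) y = 0) ∧ q (f i + (x + t • e i)) = 0 := by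
            intro x hx
            obtain ⟨t, ht⟩ := exists_adjust h (hqe i hi) (y := f i + x) (by
              rw [h.add_left, hx _ (he0 i hi), add_zero]; exact hκ i hi)
            exact ⟨t, add_mem (s := perpW h (c0.sp (i + 1))) hx
              (Submodule.smul_mem _ _ (hEp _ _ (heE i hi))), by rwa [← add_assoc]⟩
          by_cases hve : β v (e i) = 0
          · have h1 : v ∈ c0.sp (i + 1) := by
              refine mem_of_perp_perp h fun z hz => ?_
              obtain ⟨t, ht1, ht2⟩ := hadj z hz
              have := hmove _ ht1 ht2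
              rw [hve, mul_zero, zero_smul, zero_sub, neg_mem_iff, h.add_right,
                wf_smul_right_zero h hve, add_zero] at this
              by_contra h0
              exact hne ((Submodule.smul_mem_iff _ h0).1 this)
            have h2 : c.sp (i + 1) = c0.sp (i + 1) := by
              refine Submodule.eq_of_le_of_finrank_eq (fun x hx => ?_)
                (by rw [c.dim _ hi, c0.dim _ hi])
              obtain ⟨y, hy, t, rfl⟩ := mem_sup_of_codim_one (c.mono (Nat.le_succ i)) hcod hv hvn hx
              exact add_mem (c0.mono (Nat.le_succ i) (ih ▸ hy)) (Submodule.smul_mem _ _ h1)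
            exact hne (h2 ▸ he0 i hi)
          have hcap : ∀ x ∈ c.sp (i + 1), β x (e i) = 0 → x ∈ c0.sp i := by
            intro x hx hxe
            obtain ⟨y, hy, t, rfl⟩ := mem_sup_of_codim_one (c.mono (Nat.le_succ i)) hcod hv hvn hx
            rw [ih] at hy
            rw [h.add_left, h.smul_left, hEp _ _ hy _ (heE i hi), zero_add] at hxe
            rw [(mul_eq_zero.1 hxe).resolve_right hve]
            simpa using hy
          have hκv : (β (f i) (e i))⁻¹ * β v (e i) ≠ 0 := mul_ne_zero (inv_ne_zero (hκ i hi)) hve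
          have hpp : ∀ x, (∀ y ∈ c0.sp (i + 1), β x y = 0) → x ∈ c0.sp (i + 1) := by
            intro x hx
            obtain ⟨t, ht1, ht2⟩ := hadj x hx
            have h1 := hcap _ (hmove _ ht1 ht2) (by
              rw [h.sub_left, h.smul_left, h.smul_left, h.add_left, h.smul_left, ht1 _ (he0 i hi),
                hee i hi i hi]; simp)
            have h2 := add_mem (c0.mono (Nat.le_succ i) h1)
              (Submodule.smul_mem _ (β v (x + t • e i)) (he0 i hi))
            rw [sub_add_cancel, Submodule.smul_mem_iff _ hκv,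
              Submodule.add_mem_iff_left _ (Submodule.smul_mem _ _ (he0 i hi)),
              Submodule.add_mem_iff_left _ (Submodule.smul_mem _ _ (he0 i hi))] at h2
            exact h2
          obtain ⟨s, hs0, hs⟩ := hD g (c0.sp (i + 1)) (hts c0 _) hpp (by
            have e1 : c0.sp (i + 1) ⊓ (c0.sp (i + 1)).map (ρ g : V →ₗ[F] V) = c0.sp i := by
              apply le_antisymm
              · rintro x ⟨hx1, hx2⟩
                exact hcap x hx2 (hEp _ _ hx1 _ (heE i hi))
              · exact le_inf (c0.mono (Nat.le_succ i)) (ih ▸ c.mono (Nat.le_succ i))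
            rw [e1, c0.dim _ hi, c0.dim i (by omega)])
          obtain ⟨t, ht⟩ := h.σ_surj (s / β (f i) (e i))
          have ht0 : t ≠ 0 := by
            rintro rfl
            have := h.smul_right 0 (f i) (e i)
            rw [zero_smul, h.zero_right, ht, div_mul_cancel₀ _ (hκ i hi)] at this
            exact hs0 this.symm
          have h1 := hmove (t • e i) (Submodule.smul_mem (perpW h _) _ (hEp _ _ (heE i hi))) (by
            rw [h.q_add, hqf i hi, h.q_smul_zero (hqe i hi), h.smul_right, ht,
              div_mul_cancel₀ _ (hκ i hi), hs]; simp)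
          rw [h.smul_right, h.smul_right, ← add_smul, smul_smul, ← sub_smul] at h1
          refine hne ((Submodule.smul_mem_iff _ ?_).1 h1)
          have : (β (f i) (e i))⁻¹ * β v (e i) * (t + σ t * β (f i) (e i)) - σ t * β v (e i) =
              (β (f i) (e i))⁻¹ * β v (e i) * t := by
            field_simp [hκ i hi]
            ring
          rw [this]
          exact mul_ne_zero hκv ht0
      exact Ch.ext' this
    · intro f0 hf0 h0
      refine St_inj (I := {i | 1 ≤ i ∧ i ≤ r}) (fun c x hx H => ?_) (fun i h1 h2 => ⟨h1, h2.le⟩)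
        ?_ hf0 h0
      · refine hKv x (c.adm.1 x hx) ((hperp r le_rfl x).1 ((hO r le_rfl x).1 fun k _ hk => H k hk))
          fun t ht => by rw [← hlam1 t ht, H t (by omega)]
      rcases Nat.eq_zero_or_pos r with hr0 | hr0
      · exact Or.inl (by omega)
      refine Or.inr ⟨⟨hr0, le_rfl⟩, fun c c' hadj hne x hx hxn x' hx' hx'n k k' hk hk' hkk => ?_⟩
      by_contra hlt
      have e1 : c.sp (r - 1) = c'.sp (r - 1) := hadj _ (by omega) (by omega)
      have h1 : x ∈ c0.sp r := hmax c0 x (c.adm.1 x hx)
        ((hO r le_rfl x).1 fun j hj hj' => hk.2.2 j (by omega) hj')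
      have h2 : x' ∈ c0.sp r := hmax c0 x' (c'.adm.1 x' hx')
        ((hO r le_rfl x').1 fun j hj hj' => hk'.2.2 j (by omega) hj')
      have h3 : x' ∈ c.sp r := by
        refine hmax c x' (c'.adm.1 x' hx') fun y hy => ?_
        obtain ⟨z, hz, t, rfl⟩ := mem_sup_of_codim_one (c.le_top (r - 1))
          (by rw [c.dim r le_rfl, c.dim _ (by omega)]; omega) hx hxn hy
        rw [h.add_right, wf_smul_right_zero h (c0.adm.2 _ h2 _ h1),
          c'.adm.2 _ hx' _ (c'.le_top _ (e1 ▸ hz)), add_zero]
      refine hne (Ch.ext' fun j hj => ?_)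
      by_cases hjr : j = r
      · subst hjr
        refine Submodule.eq_of_le_of_finrank_eq (fun y hy => ?_) (by rw [c.dim _ hj, c'.dim _ hj])
        obtain ⟨z, hz, t, rfl⟩ := mem_sup_of_codim_one (c'.le_top (j - 1))
          (by rw [c'.dim j le_rfl, c'.dim _ (by omega)]; omega) hx' (e1 ▸ hx'n) hy
        exact add_mem (c.le_top _ (e1 ▸ hz)) (Submodule.smul_mem _ _ h3)
      · exact (hadj j hj hjr).symm
    · let sg : Equiv.Perm (Fin r) × (Fin r → ℤˣ) → ℂ := fun w =>
        ((Equiv.Perm.sign w.1 * ∏ t, -w.2 t : ℤˣ) : ℤ)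
      have hw : ∀ w, ch w ∈ Opp lam (2 * r) (TS β q) r → w = w0 := by
        intro w hw
        have := seq_eq_of_opp hw a hlam (sq w) (fun t ht => sq_lt w ht)
          (fun s hs t ht => sq_inj w hs ht) fun t ht => by
            change _ ∈ (flagOf _ _ _).sp _
            rw [flagOf_sp _ _ _ ht]
            exact Submodule.subset_span (Set.mem_image_of_mem _ (Nat.lt_succ_self t))
        have h2 : ∀ t : Fin r, w.1 t = t ∧ w.2 t = -1 := by
          intro t
          have h1 := this t t.2
          have h3 := t.2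
          have h4 := (w.1 t).2
          unfold sq at h1
          rw [pe_fin, ep, dif_pos t.2] at h1
          split_ifs at h1 with h5
          · omega
          · exact ⟨Fin.ext (by omega), (Int.units_eq_one_or _).resolve_left h5⟩
        exact Prod.ext (Equiv.ext fun t => (h2 t).1) (funext fun t => (h2 t).2)
      refine ⟨_, apartment_mem ch sg ?_, ?_, ?_⟩
      · rintro i ⟨h1, h2⟩
        obtain ⟨i, rfl⟩ : ∃ j, i = j + 1 := ⟨i - 1, by omega⟩
        rcases h2.eq_or_lt with h2 | h2
        · let i0 : Fin r := ⟨i, by omega⟩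
          refine ⟨Function.Involutive.toPerm (fun w => (w.1, Function.update w.2 i0 (-w.2 i0)))
            (fun w => by simp), fun w => ?_⟩
          change Adj _ _ (ch (w.1, Function.update w.2 i0 (-w.2 i0))) ∧
            sg (w.1, Function.update w.2 i0 (-w.2 i0)) = _
          constructor
          · rw [h2]
            refine adj_flagOf_last _ _ _ _ _ _ fun t ht => ?_
            have ht' : t < r := by omega
            simp only [sq, ep, dif_pos ht']
            rw [Function.update_of_ne (by simp only [i0, ne_eq, Fin.ext_iff]; omega)]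
          · have e1 : ∏ t, -(Function.update w.2 i0 (-w.2 i0)) t = -∏ t, -w.2 t := by
              rw [← Finset.mul_prod_erase _ _ (Finset.mem_univ i0),
                ← Finset.mul_prod_erase _ (fun t => -w.2 t) (Finset.mem_univ i0),
                Finset.prod_congr rfl fun t ht => by
                  rw [Function.update_of_ne (Finset.ne_of_mem_erase ht)],
                Function.update_self, neg_mul]
            simp only [sg]
            rw [e1, mul_neg, Units.val_neg, Int.cast_neg]
        · let τ : Equiv.Perm (Fin r) := Equiv.swap ⟨i, by omega⟩ ⟨i + 1, h2⟩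
          refine ⟨Function.Involutive.toPerm (fun w => (w.1 * τ, w.2 ∘ τ))
            (fun w => by ext <;> simp [τ, mul_assoc]), fun w => ?_⟩
          change Adj _ _ (ch (w.1 * τ, w.2 ∘ τ)) ∧ sg (w.1 * τ, w.2 ∘ τ) = _
          constructor
          · refine adj_flagOf_swap _ _ _ _ _ _ h2 fun t ht => ?_
            simp only [sq, τ]
            rw [pe_swap w.1 h2 ht, ep_swap w.2 h2 ht]
          · simp only [sg, map_mul, Function.comp_apply]
            rw [Equiv.prod_comp τ fun t => -w.2 t, Equiv.Perm.sign_swap (by simp)]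
            simp
      · rw [Finset.sum_eq_single w0]
        · simp [sg, w0]
        · intro w hw' hne
          exact absurd (hw w (by rw [(Finset.mem_filter.1 hw').2]; exact hdO)) hne
        · intro h; exact absurd (by simp [d]) h
      · intro c hc hne
        refine Finset.sum_eq_zero fun w hw' => ?_
        have e := (Finset.mem_filter.1 hw').2
        exact absurd (by rw [← e, hw w (e ▸ hc)]) hne
  obtain ⟨c0⟩ : Nonempty (Ch (TS β q) r) := by
    let b := Module.finBasisOfFinrankEq F X0 hX0r
    refine ⟨flagOf (fun t => if h : t < r then (b ⟨t, h⟩ : V) else 0) ?_ (hX0.mono ?_)⟩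
    · simpa [Function.comp_def] using b.linearIndependent.map' X0.subtype X0.ker_subtype
    · rw [Submodule.span_le]
      rintro _ ⟨t, ht, rfl⟩
      have ht : t < r := ht
      simp [ht]
  obtain ⟨d, O, U, hB, hinj, f0, hf0, h1, h2⟩ := key c0
  refine hasSt_of_base (St (TS β q) r {i | 1 ≤ i ∧ i ≤ r}) (fun g f hf => St_inv (ρ' g⁻¹) hf)
    (fun c => ?_) hB hinj f0 hf0 h1 h2
  obtain ⟨d, O, U, hB, -⟩ := key c
  exact ⟨d, O, U, hB⟩

end Cfsg.Agent.Lib.Stein
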