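import Mathlib
import Cfsg.Prelude.Def_Characters

/-!
An abstract criterion for the existence of a Steinberg character: an invariant space of functions
on a finite `G`-set whose restriction to a regular orbit of a Sylow subgroup is bijective.
-/

set_option autoImplicit false

namespace Cfsg.Agent.Lib.Stein

/-- the conclusion: an irreducible character that restricts to the regular character on the
Sylow `p`-subgroups -/
def HasSt (p : ℕ) (G : Type*) [Group G] : Prop :=
  ∃ χ : G → ℂ, Cfsg.IsIrrCharacter G χ ∧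
    ∀ P : Sylow p G, χ 1 = Nat.card P ∧ ∀ x : G, x ∈ P → x ≠ 1 → χ x = 0

variable {G C : Type*} [Group G] [MulAction G C]

/-- the permutation representation on functions -/
def permRep (G C : Type*) [Group G] [MulAction G C] : Representation ℂ G (C → ℂ) where
  toFun g := LinearMap.funLeft ℂ ℂ fun c => g⁻¹ • c
  map_one' := by ext f c; simp
  map_mul' g h := by ext f c; simp [mul_smul]

theorem permRep_apply (g : G) (f : C → ℂ) (c : C) : permRep G C g f c = f (g⁻¹ • c) := rfl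

theorem hasSt_of [Finite G] {p : ℕ} [Fact p.Prime] (St : Submodule ℂ (C → ℂ))
    (hinv : ∀ g : G, ∀ f ∈ St, permRep G C g f ∈ St) (O : Set C) (d : C) (U : Sylow p G)
    (hO : ∀ u ∈ U, u • d ∈ O) (htr : ∀ c ∈ O, ∃ u ∈ U, u • d = c)
    (hfree : ∀ u ∈ U, u • d = d → u = 1)
    (hinj : ∀ f ∈ St, (∀ c ∈ O, f c = 0) → f = 0)
    (f0 : C → ℂ) (hf0 : f0 ∈ St) (hd : f0 d = 1) (hf0' : ∀ c ∈ O, c ≠ d → f0 c = 0)
    (hfix : ∀ c : C, ∃ P : Sylow p G, ∀ u ∈ P, u • c = c) : HasSt p G := by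
  classical
  have := Fintype.ofFinite G
  let U' : Subgroup G := U
  let S : Subrepresentation (permRep G C) := ⟨St, fun g f hf => hinv g f hf⟩
  let ρ : Representation ℂ G St := S.toRepresentation
  have hρ : ∀ (g : G) (f : St) (c : C), (ρ g f).1 c = f.1 (g⁻¹ • c) := fun _ _ _ => rfl
  let res : St →ₗ[ℂ] (U' → ℂ) :=
    (LinearMap.funLeft ℂ ℂ fun u : U' => (u : G) • d) ∘ₗ St.subtype
  have hres : ∀ (f : St) (u : U'), res f u = f.1 ((u : G) • d) := fun _ _ => rfl
  have hbij : Function.Bijective res := by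
    constructor
    · rw [injective_iff_map_eq_zero]
      intro f hf
      refine Subtype.ext (hinj f f.2 fun c hc => ?_)
      obtain ⟨u, hu, rfl⟩ := htr c hc
      exact congrFun hf ⟨u, hu⟩
    · intro φ
      refine ⟨∑ u : U', φ u • ρ u ⟨f0, hf0⟩, ?_⟩
      ext v
      rw [map_sum, Finset.sum_apply]
      rw [Finset.sum_eq_single v]
      · rw [map_smul, Pi.smul_apply, hres, hρ, inv_smul_smul]
        simp [hd]
      · intro u _ huv
        rw [map_smul, Pi.smul_apply, hres, hρ, smul_smul]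
        have hm : (u : G)⁻¹ * v ∈ U := mul_mem (inv_mem u.2) v.2
        change φ u • f0 _ = 0
        rw [hf0' _ (hO _ hm), smul_zero]
        intro h
        exact huv (Subtype.ext (inv_mul_eq_one.1 (hfree _ hm h)))
      · simp
  let e : St ≃ₗ[ℂ] (U' → ℂ) := LinearEquiv.ofBijective res hbij
  let e2 : (U' → ℂ) ≃ₗ[ℂ] (Fin (Fintype.card U') → ℂ) :=
    LinearEquiv.funCongrLeft ℂ ℂ (Fintype.equivFin U').symm
  let e3 := e.trans e2
  let σ : Representation ℂ G (Fin (Fintype.card U') → ℂ) :=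
    { toFun := fun g => e3.conj (ρ g)
      map_one' := by simp [Module.End.one_eq_id]
      map_mul' := fun g h => by rw [map_mul]; exact e3.conj_comp _ _ }
  have hσ : ∀ g f, σ g (e3 f) = e3 (ρ g f) := fun g f => by simp [σ]
  have hchar : ∀ g, σ.character g = LinearMap.trace ℂ _ (e.conj (ρ g)) := fun g => by
    change LinearMap.trace ℂ _ (e3.conj (ρ g)) = _
    rw [LinearMap.trace_conj', LinearMap.trace_conj']
  have hzero : ∀ u ∈ U, u ≠ 1 → σ.character u = 0 := by
    intro u hu hu1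
    rw [hchar, LinearMap.trace_eq_matrix_trace ℂ (Pi.basisFun ℂ U'), Matrix.trace]
    refine Finset.sum_eq_zero fun v _ => ?_
    rw [Matrix.diag_apply, LinearMap.toMatrix_apply]
    obtain ⟨f, hf⟩ := e.surjective (Pi.basisFun ℂ U' v)
    have h1 : e.conj (ρ u) (e f) = e (ρ u f) := by simp
    rw [← hf, h1, Pi.basisFun_repr]
    change res (ρ u f) v = 0
    rw [hres, hρ, smul_smul]
    have hm : u⁻¹ * v ∈ U := mul_mem (inv_mem hu) v.2
    have h2 : f.1 ((u⁻¹ * v) • d) = e f ⟨_, hm⟩ := rfl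
    rw [h2, hf, Pi.basisFun_apply, Pi.single_apply, if_neg]
    intro h
    have := congrArg Subtype.val h
    simp only [mul_eq_right, inv_eq_one] at this
    exact hu1 this
  -- fixed vectors
  have hfixv : ∀ W : Subrepresentation σ, W ≠ ⊥ →
      ∃ f : St, f ≠ 0 ∧ e3 f ∈ W ∧ ∀ u ∈ U, ρ u f = f := by
    intro W hW
    obtain ⟨w, hw, hw0⟩ : ∃ w ∈ W, w ≠ 0 := by
      by_contra h
      push Not at h
      exact hW (eq_bot_iff.2 fun w hw => h w hw)
    obtain ⟨f, rfl⟩ := e3.surjective w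
    have hf0 : f ≠ 0 := fun h => hw0 (by rw [h, map_zero])
    obtain ⟨c, hc⟩ : ∃ c, f.1 c ≠ 0 := by
      by_contra h
      push Not at h
      exact hf0 (Subtype.ext (funext h))
    obtain ⟨P, hP⟩ := hfix c
    obtain ⟨g, hg⟩ := MulAction.exists_smul_eq G P U
    let f1 : St := ∑ x : P, ρ x f
    have hf1 : f1.1 c ≠ 0 := by
      have : f1.1 c = ∑ x : P, f.1 c := by
        simp only [f1, AddSubmonoidClass.coe_finset_sum, Finset.sum_apply]
        refine Finset.sum_congr rfl fun x _ => ?_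
        rw [hρ, hP _ (inv_mem x.2)]
      rw [this, Finset.sum_const, nsmul_eq_mul]
      exact mul_ne_zero (by simp) hc
    have hf1P : ∀ y ∈ P, ρ y f1 = f1 := by
      intro y hy
      simp only [f1, map_sum]
      refine Fintype.sum_equiv (Equiv.mulLeft (⟨y, hy⟩ : P)) _ _ fun x => ?_
      change _ = ρ (y * x) f
      rw [map_mul]; rfl
    refine ⟨ρ g f1, ?_, ?_, fun u hu => ?_⟩
    · intro h
      apply hf1
      have : f1 = ρ g⁻¹ (ρ g f1) := by
        rw [← Module.End.mul_apply, ← map_mul, inv_mul_cancel, map_one]; rfl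
      rw [this, h, map_zero]; rfl
    · rw [← hσ]
      refine W.apply_mem_toSubmodule g ?_
      simp only [f1, map_sum]
      exact W.toSubmodule.sum_mem fun x _ => by
        rw [← hσ]; exact W.apply_mem_toSubmodule _ hw
    · have hy : g⁻¹ * u * g ∈ P := by
        rw [← hg] at hu
        have := (Subgroup.mem_pointwise_smul_iff_inv_smul_mem).1 hu
        have h2 : g⁻¹ * u * g ∈ (P : Subgroup G) := by simpa using this
        exact h2
      rw [← Module.End.mul_apply, ← map_mul, show u * g = g * (g⁻¹ * u * g) by group, map_mul,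
        Module.End.mul_apply, hf1P _ hy]
  have hconst : ∀ f : St, (∀ u ∈ U, ρ u f = f) → ∀ u : U', res f u = f.1 d := by
    intro f hf u
    rw [hres]
    conv_rhs => rw [← hf _ (inv_mem u.2), hρ, inv_inv]
  have hirr : σ.IsIrreducible := by
    haveI : Nontrivial (Subrepresentation σ) := by
      refine ⟨⊥, ⊤, fun h => ?_⟩
      have : e3 ⟨f0, hf0⟩ ∈ (⊥ : Subrepresentation σ) := by rw [h]; trivial
      have h2 : e3 ⟨f0, hf0⟩ = 0 := this
      rw [map_eq_zero_iff _ e3.injective] at h2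
      have h3 : f0 d = 0 := congrFun (congrArg Subtype.val h2) d
      rw [hd] at h3
      exact one_ne_zero h3
    refine ⟨fun W => ?_⟩
    obtain ⟨W', hW'⟩ := exists_isCompl W
    by_contra hne
    push Not at hne
    have hW'0 : W' ≠ ⊥ := by
      rintro rfl
      exact hne.2 (by simpa using hW'.sup_eq_top)
    obtain ⟨f, hf0, hfW, hfU⟩ := hfixv W hne.1
    obtain ⟨f', hf0', hfW', hfU'⟩ := hfixv W' hW'0
    have hd' : f'.1 d ≠ 0 := by
      intro h
      apply hf0'
      apply hbij.1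
      ext u
      rw [hconst f' hfU', h]; simp
    have heq : f = (f.1 d / f'.1 d) • f' := by
      apply hbij.1
      ext u
      rw [map_smul, Pi.smul_apply, hconst f hfU, hconst f' hfU', smul_eq_mul, div_mul_cancel₀ _ hd']
    have : e3 f ∈ W ⊓ W' := by
      refine ⟨hfW, ?_⟩
      rw [heq, map_smul]
      exact W'.toSubmodule.smul_mem _ hfW'
    rw [hW'.inf_eq_bot] at this
    exact hf0 ((map_eq_zero_iff _ e3.injective).1 this)
  refine ⟨σ.character, ⟨_, σ, hirr, rfl⟩, fun P => ?_⟩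
  obtain ⟨g, hg⟩ := MulAction.exists_smul_eq G P U
  constructor
  · rw [Representation.char_one, Module.finrank_fin_fun, ← Nat.card_eq_fintype_card]
    congr 1
    exact Nat.card_congr (Sylow.equiv U P).toEquiv
  · intro x hx hx1
    rw [← σ.char_conj x g]
    refine hzero _ ?_ (by simpa using hx1)
    rw [← hg]
    exact Subgroup.smul_mem_pointwise_smul _ (MulAut.conj g) _ hx

theorem hasSt_quot [Finite G] {p : ℕ} [Fact p.Prime] (Z : Subgroup G) [Z.Normal]
    (hZ : ∀ z ∈ Z, ∀ c : C, z • c = c) (St : Submodule ℂ (C → ℂ))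
    (hinv : ∀ g : G, ∀ f ∈ St, permRep G C g f ∈ St) (O : Set C) (d : C) (U : Sylow p G)
    (hO : ∀ u ∈ U, u • d ∈ O) (htr : ∀ c ∈ O, ∃ u ∈ U, u • d = c)
    (hfree : ∀ u ∈ U, u • d = d → u = 1)
    (hinj : ∀ f ∈ St, (∀ c ∈ O, f c = 0) → f = 0)
    (f0 : C → ℂ) (hf0 : f0 ∈ St) (hd : f0 d = 1) (hf0' : ∀ c ∈ O, c ≠ d → f0 c = 0)
    (hfix : ∀ c : C, ∃ P : Sylow p G, ∀ u ∈ P, u • c = c) : HasSt p (G ⧸ Z) := by
  let φ : G ⧸ Z →* Equiv.Perm C := QuotientGroup.lift Z (MulAction.toPermHom G C) fun z hz =>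
    Equiv.ext fun c => hZ z hz c
  letI : MulAction (G ⧸ Z) C := MulAction.compHom C φ
  have hs : ∀ (g : G) (c : C), (g : G ⧸ Z) • c = g • c := fun _ _ => rfl
  have hsurj : Function.Surjective (QuotientGroup.mk' Z) := QuotientGroup.mk'_surjective Z
  refine hasSt_of St ?_ O d (U.mapSurjective hsurj) ?_ ?_ ?_ hinj f0 hf0 hd hf0' ?_
  · intro g f hf
    obtain ⟨g, rfl⟩ := QuotientGroup.mk_surjective g
    exact hinv g f hf
  · rintro _ ⟨u, hu, rfl⟩
    exact hO u hu
  · intro c hc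
    obtain ⟨u, hu, rfl⟩ := htr c hc
    exact ⟨u, ⟨u, hu, rfl⟩, rfl⟩
  · rintro _ ⟨u, hu, rfl⟩ h
    rw [hfree u hu h, map_one]
  · intro c
    obtain ⟨P, hP⟩ := hfix c
    refine ⟨P.mapSurjective hsurj, ?_⟩
    rintro _ ⟨u, hu, rfl⟩
    exact hP u hu

/-- recognising a Sylow subgroup -/
theorem exists_sylow_eq [Finite G] {p : ℕ} [Fact p.Prime] (U : Subgroup G) (hU : IsPGroup p U)
    (h : ∀ P : Subgroup G, IsPGroup p P → U ≤ P →
      ∀ g ∈ Subgroup.normalizer (U : Set G), g ∈ P → g ∈ U) :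
    ∃ P : Sylow p G, (P : Subgroup G) = U := by
  obtain ⟨P, hP⟩ := hU.exists_le_sylow
  refine ⟨P, ?_⟩
  by_contra hne
  haveI : Group.IsNilpotent P := P.2.isNilpotent
  have hlt : U.subgroupOf P < ⊤ := by
    rw [lt_top_iff_ne_top, ne_eq, Subgroup.subgroupOf_eq_top]
    exact fun h => hne (le_antisymm h hP)
  have h2 := Group.normalizerCondition_of_isNilpotent _ hlt
  obtain ⟨x, hx, hx'⟩ := SetLike.exists_of_lt h2
  apply hx'
  refine h P P.2 hP x ?_ x.2
  rw [Subgroup.mem_normalizer_iff] at hx ⊢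
  intro y
  constructor
  · intro hy
    exact (hx ⟨y, hP hy⟩).1 hy
  · intro hy
    have hyP : y ∈ (P : Subgroup G) := by
      have := mul_mem (mul_mem (inv_mem x.2) (hP hy)) x.2
      simpa [mul_assoc] using this
    exact (hx ⟨y, hyP⟩).2 hy

/-- the data attached to a base chamber `c0` -/
structure Base (p : ℕ) (c0 d : C) (O : Set C) (U : Subgroup G) : Prop where
  pgrp : IsPGroup p U
  fix : ∀ u ∈ U, u • c0 = c0
  stab : ∀ g : G, g • c0 = c0 → ∀ c ∈ O, g • c ∈ O
  mem : d ∈ O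
  tr : ∀ c ∈ O, ∃ u ∈ U, u • d = c
  free : ∀ g : G, g ^ p = 1 → g • c0 = c0 → g • d = d → g = 1
  uniq : ∀ g : G, (∀ u ∈ U, u • g • c0 = g • c0) → g • c0 = c0

theorem Base.free' {p : ℕ} [Fact p.Prime] {c0 d : C} {O : Set C} {U : Subgroup G}
    (h : Base p c0 d O U) (g : G) (k : ℕ) (hk : g ^ p ^ k = 1) (h0 : g • c0 = c0)
    (hd : g • d = d) : g = 1 := by
  induction k with
  | zero => simpa using hk
  | succ k ih =>
    apply ih
    refine h.free _ (by rw [← pow_mul, ← pow_succ, hk]) ?_ ?_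
    · exact (MulAction.stabilizer G c0).pow_mem h0 _
    · exact (MulAction.stabilizer G d).pow_mem hd _

theorem Base.sylow [Finite G] {p : ℕ} [Fact p.Prime] {c0 d : C} {O : Set C} {U : Subgroup G}
    (h : Base p c0 d O U) : ∃ P : Sylow p G, (P : Subgroup G) = U := by
  refine exists_sylow_eq U h.pgrp fun P hP hUP g hg hgP => ?_
  have h0 : g • c0 = c0 := by
    refine h.uniq g fun u hu => ?_
    have : g⁻¹ * u * g ∈ U := by
      rw [Subgroup.mem_normalizer_iff] at hg
      exact (hg _).2 (by simpa [mul_assoc] using hu)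
    rw [smul_smul, show u * g = g * (g⁻¹ * u * g) by group, mul_smul, h.fix _ this]
  obtain ⟨u, hu, hud⟩ := h.tr _ (h.stab g h0 d h.mem)
  obtain ⟨k, hk⟩ := hP ⟨u⁻¹ * g, mul_mem (inv_mem (hUP hu)) hgP⟩
  have := h.free' (u⁻¹ * g) k (by simpa using congrArg Subtype.val hk)
    (by rw [mul_smul, h0, h.fix _ (inv_mem hu)]) (by rw [mul_smul, ← hud, inv_smul_smul])
  rw [inv_mul_eq_one] at this
  exact this ▸ hu

theorem hasSt_of_base [Finite G] {p : ℕ} [Fact p.Prime] (St : Submodule ℂ (C → ℂ))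
    (hinv : ∀ g : G, ∀ f ∈ St, permRep G C g f ∈ St)
    (hall : ∀ c : C, ∃ (d : C) (O : Set C) (U : Subgroup G), Base p c d O U)
    {c0 d : C} {O : Set C} {U : Subgroup G} (h : Base p c0 d O U)
    (hinj : ∀ f ∈ St, (∀ c ∈ O, f c = 0) → f = 0)
    (f0 : C → ℂ) (hf0 : f0 ∈ St) (hd : f0 d = 1) (hf0' : ∀ c ∈ O, c ≠ d → f0 c = 0) :
    HasSt p (G ⧸ Subgroup.center G) := by
  obtain ⟨P, hP⟩ := h.sylow
  subst hP
  refine hasSt_quot _ ?_ St hinv O d P (fun u hu => h.stab u (h.fix u hu) d h.mem) h.tr ?_ hinj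
    f0 hf0 hd hf0' ?_
  · intro z hz c
    obtain ⟨d, O, U, h⟩ := hall c
    refine h.uniq z fun u hu => ?_
    rw [smul_smul, Subgroup.mem_center_iff.1 hz u, mul_smul, h.fix u hu]
  · intro u hu hud
    obtain ⟨k, hk⟩ := P.2 ⟨u, hu⟩
    exact h.free' u k (by simpa using congrArg Subtype.val hk) (h.fix u hu) hud
  · intro c
    obtain ⟨d, O, U, h⟩ := hall c
    obtain ⟨P, hP⟩ := h.sylow
    subst hP
    exact ⟨P, h.fix⟩

end Cfsg.Agent.Lib.Stein
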