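import Cfsg.Agent.Lib.Stein.Flag

/-!
The Steinberg character for linear groups containing all `p`-elements of `GL(V)`.
-/

set_option autoImplicit false

namespace Cfsg.Agent.Lib.Stein

open Module

variable {F V : Type*} [Field F] [AddCommGroup V] [Module F V]

theorem adj_flagOf_swap {S : Submodule F V → Prop} {r : ℕ} (v v' : ℕ → V) (hv) (hS) (hv') (hS')
    {i : ℕ} (hi : i + 1 < r) (h : ∀ t < r, v' t = v (Equiv.swap i (i + 1) t)) :
    Adj (i + 1) (flagOf (S := S) (r := r) v hv hS) (flagOf v' hv' hS') := by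
  intro j hj hji
  rw [flagOf_sp _ _ _ hj, flagOf_sp _ _ _ hj]
  have key : ∀ t < j, Equiv.swap i (i + 1) t < j := by
    intro t ht
    rw [Equiv.swap_apply_def]
    split_ifs <;> omega
  congr 1
  ext x
  constructor
  · rintro ⟨t, ht, rfl⟩
    exact ⟨_, key t ht, by rw [h _ (lt_of_lt_of_le (key t ht) hj), Equiv.swap_apply_self]⟩
  · rintro ⟨t, ht, rfl⟩
    exact ⟨_, key t ht, (h t (lt_of_lt_of_le ht hj)).symm⟩

theorem adj_flagOf_last {S : Submodule F V → Prop} {r : ℕ} (v v' : ℕ → V) (hv) (hS) (hv') (hS')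
    (h : ∀ t, t + 1 < r → v' t = v t) :
    Adj r (flagOf (S := S) (r := r) v hv hS) (flagOf v' hv' hS') := by
  intro j hj hji
  rw [flagOf_sp _ _ _ hj, flagOf_sp _ _ _ hj]
  congr 1
  refine Set.image_congr fun t ht => (h t ?_).symm
  have : t < j := ht
  omega

/-- a permutation of `Fin r` as a map on `ℕ` -/
def pe {r : ℕ} (w : Equiv.Perm (Fin r)) (t : ℕ) : ℕ := if h : t < r then w ⟨t, h⟩ else t

theorem pe_lt {r : ℕ} (w : Equiv.Perm (Fin r)) {t : ℕ} (ht : t < r) : pe w t < r := by
  rw [pe, dif_pos ht]; exact Fin.is_lt _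

theorem pe_fin {r : ℕ} (w : Equiv.Perm (Fin r)) (t : Fin r) : pe w t = w t := by
  rw [pe, dif_pos t.2]

theorem pe_inj {r : ℕ} (w : Equiv.Perm (Fin r)) {s t : ℕ} (hs : s < r) (ht : t < r)
    (h : pe w s = pe w t) : s = t := by
  rw [pe, pe, dif_pos hs, dif_pos ht] at h
  simpa using w.injective (Fin.ext h)

theorem pe_swap {r : ℕ} (w : Equiv.Perm (Fin r)) {i : ℕ} (hi : i + 1 < r) {t : ℕ} (ht : t < r) :
    pe (w * Equiv.swap ⟨i, by omega⟩ ⟨i + 1, hi⟩) t = pe w (Equiv.swap i (i + 1) t) := by
  have : Equiv.swap i (i + 1) t < r := by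
    rw [Equiv.swap_apply_def]
    split_ifs <;> omega
  rw [pe, pe, dif_pos ht, dif_pos this, Equiv.Perm.mul_apply]
  congr 2
  simp only [Equiv.swap_apply_def, Fin.ext_iff]
  split_ifs <;> rfl

theorem injective_of_chain (M : ℕ → Submodule F V) (n : ℕ) (h0 : M 0 = ⊥) (hn : M n = ⊤)
    (T : V →ₗ[F] V) (hT : ∀ j, ∀ x ∈ M (j + 1), T x - x ∈ M j) : Function.Injective T := by
  rw [injective_iff_map_eq_zero]
  intro x hx
  have : ∀ j, x ∈ M j → x = 0 := by
    intro j
    induction j with
    | zero => intro h; simpa [h0] using h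
    | succ j ih => intro h; exact ih (by simpa [hx] using hT j x h)
  exact this n (hn ▸ Submodule.mem_top)

theorem eigen_eq_one {p : ℕ} [Fact p.Prime] [CharP F p] {g : V ≃ₗ[F] V} (hg : g ^ p = 1) {x : V}
    {c : F} (hx : g x = c • x) : g x = x := by
  have h1 : ∀ k : ℕ, (g ^ k) x = c ^ k • x := by
    intro k
    induction k with
    | zero => simp
    | succ k ih => rw [pow_succ', LinearEquiv.mul_apply, ih, map_smul, hx, smul_smul, pow_succ]
  have h2 := h1 p
  rw [hg] at h2
  by_cases hx0 : x = 0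
  · simp [hx0]
  have h3 : c ^ p = 1 := by
    have : (c ^ p - 1) • x = 0 := by rw [sub_smul, ← h2, one_smul]; simp
    exact sub_eq_zero.1 ((smul_eq_zero.1 this).resolve_right hx0)
  have h4 : (c - 1) ^ p = 0 := by rw [sub_pow_char, h3, one_pow, sub_self]
  rw [hx, sub_eq_zero.1 (pow_eq_zero_iff (Fact.out : p.Prime).ne_zero |>.1 h4), one_smul]

theorem lam_eq_zero_of_mem_span {lam : Module.Dual F V} {s : Set V} (hs : ∀ y ∈ s, lam y = 0)
    {x : V} (hx : x ∈ Submodule.span F s) : lam x = 0 :=
  (Submodule.span_le.2 (show s ⊆ LinearMap.ker lam from hs)) hx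

theorem det_eq_one_of_pow {p : ℕ} [Fact p.Prime] [CharP F p] {g : V ≃ₗ[F] V} {k : ℕ}
    (hk : g ^ p ^ k = 1) : LinearMap.det (g : V →ₗ[F] V) = 1 := by
  have h1 : (LinearEquiv.det g : F) ^ p ^ k = 1 := by
    rw [← Units.val_pow_eq_pow_val, ← map_pow, hk, map_one, Units.val_one]
  rw [LinearEquiv.coe_det] at h1
  have h4 : (LinearMap.det (g : V →ₗ[F] V) - 1) ^ p ^ k = 0 := by
    rw [sub_pow_char_pow, h1, one_pow, sub_self]
  exact sub_eq_zero.1 (pow_eq_zero_iff (pow_ne_zero _ (Fact.out : p.Prime).ne_zero) |>.1 h4)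

/-- the trivial admissibility condition -/
abbrev AllS (F V : Type*) [Field F] [AddCommGroup V] [Module F V] : Submodule F V → Prop :=
  fun _ => True

theorem hasSt_linear [Finite V] [FiniteDimensional F V] {p : ℕ} [Fact p.Prime] [CharP F p]
    {G : Type*} [Group G] [Finite G] (ρ : G →* (V ≃ₗ[F] V)) (hρ : Function.Injective ρ)
    (hp : ∀ (g : V ≃ₗ[F] V) (k : ℕ), g ^ p ^ k = 1 → g ∈ ρ.range) :
    HasSt p (G ⧸ Subgroup.center G) := by
  classical
  set n := finrank F V with hn
  let ρ' : G →* Aut (AllS F V) := ρ.codRestrict _ fun g X => Iff.rfl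
  letI : MulAction G (Ch (AllS F V) n) := MulAction.compHom _ ρ'
  have hsm : ∀ (g : G) (c : Ch (AllS F V) n), g • c = ρ' g • c := fun _ _ => rfl
  have hmem : ∀ (g : G) (c : Ch (AllS F V) n) i x, ρ g x ∈ (g • c).sp i ↔ x ∈ c.sp i :=
    fun g c i x => mem_smul_sp (ρ' g) c i x
  have key : ∀ c0 : Ch (AllS F V) n, ∃ (d : Ch (AllS F V) n) (O : Set (Ch (AllS F V) n))
      (U : Subgroup G), Base p c0 d O U ∧
      (∀ f ∈ St (AllS F V) n {i | 1 ≤ i ∧ i < n}, (∀ c ∈ O, f c = 0) → f = 0) ∧
      ∃ f0 ∈ St (AllS F V) n {i | 1 ≤ i ∧ i < n}, f0 d = 1 ∧ ∀ c ∈ O, c ≠ d → f0 c = 0 := by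
    intro c0
    obtain ⟨v, hv, hc0⟩ := exists_seq c0
    have htop : c0.sp n = ⊤ := Submodule.eq_top_of_finrank_eq (c0.dim n le_rfl)
    let b : Basis (Fin n) F V := basisOfLinearIndependentOfCardEqFinrank' _ hv (by simp [hn])
    have hb : ∀ t : Fin n, b t = v t := fun t => by simp [b]
    let lam : ℕ → Module.Dual F V := fun k => if h : k < n then b.coord ⟨k, h⟩ else 0
    have hlam : ∀ j < n, ∀ k < n, lam k (v j) = if k = j then 1 else 0 := by
      intro j hj k hk
      have := hb ⟨j, hj⟩
      simp only at this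
      simp only [lam, dif_pos hk, ← this, Basis.coord_apply, Basis.repr_self, Finsupp.single_apply,
        Fin.ext_iff, eq_comm]
    have hsum : ∀ x : V, x = ∑ t : Fin n, lam t x • v t := by
      intro x
      conv_lhs => rw [← b.sum_repr x]
      refine Finset.sum_congr rfl fun t _ => ?_
      simp [lam, hb]
    have hspan : ∀ (T : Set ℕ) (x : V), (∀ k < n, k ∉ T → lam k x = 0) →
        x ∈ Submodule.span F (v '' T) := by
      intro T x h
      rw [hsum x]
      refine Submodule.sum_mem _ fun t _ => ?_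
      by_cases ht : (t : ℕ) ∈ T
      · exact Submodule.smul_mem _ _ (Submodule.subset_span ⟨t, ht, rfl⟩)
      · rw [h t t.2 ht, zero_smul]; exact zero_mem _
    have hc0' : ∀ j ≤ n, ∀ x, x ∈ c0.sp j ↔ ∀ k, j ≤ k → k < n → lam k x = 0 := by
      intro j hj x
      rw [hc0 j hj]
      refine ⟨fun hx k hjk hk => lam_eq_zero_of_mem_span ?_ hx,
        fun h => hspan _ x fun k hk hk' => h k (not_lt.1 hk') hk⟩
      rintro _ ⟨t, ht, rfl⟩
      have ht : t < j := ht
      rw [hlam t (by omega) k hk, if_neg (by omega)]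
    have hK : ∀ x : V, (∀ k < n, lam k x = 0) → x = 0 := fun x h => by
      have := (hc0' 0 (Nat.zero_le _) x).2 fun k _ hk => h k hk
      simpa [c0.zero] using this
    have hli : ∀ w : ℕ → ℕ, (∀ t < n, w t < n) → (∀ s < n, ∀ t < n, w s = w t → s = t) →
        LinearIndependent F fun t : Fin n => v (w t) := fun w h1 h2 =>
      hv.comp (fun t : Fin n => (⟨w t, h1 t t.2⟩ : Fin n)) fun s t h =>
        Fin.ext (h2 s s.2 t t.2 (congrArg Fin.val h))
    let ch : Equiv.Perm (Fin n) → Ch (AllS F V) n := fun w =>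
      flagOf (fun t => v (pe w t)) (hli _ (fun t ht => pe_lt w ht) fun s hs t ht => pe_inj w hs ht)
        trivial
    let d := ch Fin.revPerm
    have hrev : ∀ t < n, pe (Fin.revPerm : Equiv.Perm (Fin n)) t = n - 1 - t := by
      intro t ht
      rw [pe, dif_pos ht]
      simp [Fin.val_rev]; omega
    have hd : ∀ i ≤ n, ∀ x ∈ d.sp i, ∀ k, k < n - i → lam k x = 0 := by
      intro i hi x hx k hk
      rw [flagOf_sp _ _ _ hi] at hx
      refine lam_eq_zero_of_mem_span ?_ hx
      rintro _ ⟨t, ht, rfl⟩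
      have ht : t < i := ht
      simp only
      rw [hrev t (by omega), hlam _ (by omega) k (by omega), if_neg (by omega)]
    have hdv : ∀ t < n, v (n - 1 - t) ∈ d.sp (t + 1) := by
      intro t ht
      rw [flagOf_sp _ _ _ ht]
      exact Submodule.subset_span ⟨t, Nat.lt_succ_self t, by simp only; rw [hrev t ht]⟩
    have hv0 : ∀ t < n, v t ∈ c0.sp (t + 1) := by
      intro t ht
      rw [hc0 _ ht]
      exact Submodule.subset_span ⟨t, Nat.lt_succ_self t, rfl⟩
    let U : Subgroup G := (chainGrp c0.sp c0.mono).comap ρ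
    have hU : ∀ T : V →ₗ[F] V, (∀ j, ∀ x ∈ c0.sp (j + 1), T x - x ∈ c0.sp j) →
        ∃ u ∈ U, ∀ x, ρ u x = T x := by
      intro T hT
      have hinj := injective_of_chain c0.sp n c0.zero htop T hT
      obtain ⟨u, hu⟩ := hp (LinearEquiv.ofInjectiveEndo T hinj) n
        (pow_eq_one_of_chain c0.sp n c0.zero htop _ hT)
      refine ⟨u, ?_, fun x => by rw [hu]; rfl⟩
      change ρ u ∈ chainGrp c0.sp c0.mono
      rw [hu]
      exact hT
    have hdO : d ∈ Opp lam n (AllS F V) n := by
      intro i hi x hx h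
      refine hK x fun k hk => ?_
      by_cases hk' : k < n - i
      · exact hd i hi x hx k hk'
      · exact h k (not_lt.1 hk') hk
    refine ⟨d, Opp lam n _ n, U, ⟨?_, ?_, ?_, hdO, ?_, ?_, ?_⟩, ?_, ?_⟩
    · intro u
      refine ⟨n, Subtype.ext (hρ ?_)⟩
      simpa using pow_eq_one_of_chain c0.sp n c0.zero htop _ u.2
    · intro u hu
      refine smul_eq_of_mem fun i hi x hx => ?_
      cases i with
      | zero => rw [c0.zero] at hx ⊢; simpa using hx
      | succ i =>
        change ρ u x ∈ _
        simpa using add_mem (c0.mono (Nat.le_succ i) (hu i x hx)) hx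
    · intro g hg c hc i hi x hx h
      obtain ⟨y, rfl⟩ := (ρ g).surjective x
      rw [hmem] at hx
      have h1 := (hc0' (n - i) (Nat.sub_le _ _) _).2 h
      rw [← hg, hmem] at h1
      rw [hc i hi y hx ((hc0' (n - i) (Nat.sub_le _ _) _).1 h1), map_zero]
    · intro c hc
      have hx : ∀ i < n, ∃ x ∈ c.sp (i + 1), x ∈ c0.sp (n - i) ∧ lam (n - 1 - i) x = 1 := by
        intro i hi
        have h1 := Submodule.finrank_sup_add_finrank_inf_eq (c.sp (i + 1)) (c0.sp (n - i))
        have h2 := Submodule.finrank_le (c.sp (i + 1) ⊔ c0.sp (n - i))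
        rw [c.dim _ hi, c0.dim _ (Nat.sub_le _ _)] at h1
        obtain ⟨x, hx, hx0⟩ := Submodule.exists_mem_ne_zero_of_ne_bot
          (p := c.sp (i + 1) ⊓ c0.sp (n - i)) (by
            intro h; rw [h, finrank_bot] at h1; omega)
        have h3 : lam (n - 1 - i) x ≠ 0 := by
          intro h
          refine hx0 (hc (i + 1) hi x hx.1 fun k hk hkn => ?_)
          by_cases hk' : k = n - 1 - i
          · rw [hk', h]
          · exact (hc0' _ (Nat.sub_le _ _) x).1 hx.2 k (by omega) hkn
        exact ⟨(lam (n - 1 - i) x)⁻¹ • x, Submodule.smul_mem _ _ hx.1, Submodule.smul_mem _ _ hx.2,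
          by rw [map_smul, smul_eq_mul, inv_mul_cancel₀ h3]⟩
      choose! x hx1 hx2 hx3 using hx
      let T : V →ₗ[F] V := b.constr F fun k => x (n - 1 - k)
      have hT : ∀ k < n, T (v k) = x (n - 1 - k) := fun k hk => by
        have := hb ⟨k, hk⟩
        simp only at this
        rw [← this, Basis.constr_basis]
      obtain ⟨u, hu, hu'⟩ := hU T (by
        intro j y hy
        have hle : c0.sp (j + 1) ≤ (c0.sp j).comap (T - LinearMap.id) := by
          have e : c0.sp (j + 1) = c0.sp (min (j + 1) n) := by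
            rcases le_total (j + 1) n with h | h
            · rw [min_eq_left h]
            · rw [min_eq_right h, c0.top _ h]
          rw [e, hc0 _ (min_le_right _ _), Submodule.span_le]
          rintro _ ⟨t, ht, rfl⟩
          have ht : t < min (j + 1) n := ht
          rw [lt_min_iff] at ht
          change T (v t) - v t ∈ c0.sp j
          refine c0.mono (show t ≤ j by omega) ((hc0' t ht.2.le _).2 fun k hk hkn => ?_)
          rw [hT t ht.2, map_sub, hlam t ht.2 k hkn]
          rcases hk.eq_or_lt with h | h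
          · have := hx3 (n - 1 - t) (by omega)
            rw [show n - 1 - (n - 1 - t) = t by omega] at this
            rw [← h, this]; simp
          · rw [if_neg h.ne', sub_zero]
            exact (hc0' _ (Nat.sub_le _ _) _).1 (hx2 (n - 1 - t) (by omega)) k (by omega) hkn
        exact hle hy)
      refine ⟨u, hu, smul_eq_of_mem fun i hi y hy => ?_⟩
      change ρ u y ∈ _
      rw [hu']
      rw [flagOf_sp _ _ _ hi] at hy
      refine (Submodule.span_le.2 (show _ ⊆ ((c.sp i).comap T : Set V) from ?_)) hy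
      rintro _ ⟨t, ht, rfl⟩
      have ht : t < i := ht
      change T (v (pe _ t)) ∈ c.sp i
      rw [hrev t (by omega), hT _ (by omega), show n - 1 - (n - 1 - t) = t by omega]
      exact c.mono ht (hx1 t (by omega))
    · intro g hg h0 hgd
      apply hρ
      rw [map_one]
      refine LinearEquiv.toLinearMap_injective (b.ext fun t => ?_)
      rw [hb]
      refine eigen_eq_one (c := lam t (ρ g (v t))) (by rw [← map_pow, hg, map_one]) ?_
      rw [← sub_eq_zero]
      refine hK _ fun k hk => ?_
      rw [map_sub, map_smul, hlam t t.2 k hk]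
      rcases lt_trichotomy k t with h | h | h
      · rw [if_neg h.ne, smul_zero, sub_zero]
        refine hd (n - 1 - t + 1) (by omega) _ ?_ k (by omega)
        rw [← hgd, hmem]
        have := hdv (n - 1 - t) (by omega)
        rwa [show n - 1 - (n - 1 - t) = t by omega] at this
      · simp [h]
      · rw [if_neg h.ne', smul_zero, sub_zero]
        refine (hc0' (t + 1) t.2 _).1 ?_ k h hk
        rw [← h0, hmem]
        exact hv0 t t.2
    · intro g hg
      set c := g • c0
      have : ∀ i ≤ n, c.sp i = c0.sp i := by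
        intro i hi
        induction i with
        | zero => rw [c.zero, c0.zero]
        | succ i ih =>
          by_contra hne
          have h1 : ¬ c.sp (i + 1) ≤ c0.sp (i + 1) := fun h =>
            hne (Submodule.eq_of_le_of_finrank_eq h (by rw [c.dim _ hi, c0.dim _ hi]))
          obtain ⟨x, hx, hx'⟩ := SetLike.not_le_iff_exists.1 h1
          rw [hc0' _ hi] at hx'
          push Not at hx'
          obtain ⟨j, hj, hjn, hj0⟩ := hx'
          obtain ⟨u, hu, hu'⟩ := hU (LinearMap.id + (lam j).smulRight (v i)) (by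
            intro t y hy
            simp only [LinearMap.add_apply, LinearMap.id_apply, LinearMap.smulRight_apply,
              add_sub_cancel_left]
            by_cases ht : t + 1 ≤ j
            · rw [(hc0' _ (by omega) y).1 hy j ht hjn, zero_smul]; exact zero_mem _
            · exact Submodule.smul_mem _ _ (c0.mono (show i + 1 ≤ t by omega) (hv0 i hi)))
          have h2 : ρ u x ∈ c.sp (i + 1) := by rw [← hg u hu, hmem]; exact hx
          rw [hu'] at h2
          simp only [LinearMap.add_apply, LinearMap.id_apply, LinearMap.smulRight_apply] at h2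
          have h3 : v i ∈ c.sp (i + 1) := by
            rwa [Submodule.add_mem_iff_right _ hx, Submodule.smul_mem_iff _ hj0] at h2
          refine hne (Submodule.eq_of_le_of_finrank_eq ?_ (by rw [c.dim _ hi, c0.dim _ hi])).symm
          rw [hc0 _ hi, Submodule.span_le]
          rintro _ ⟨t, ht, rfl⟩
          rcases (Nat.lt_succ_iff.1 ht).eq_or_lt with rfl | ht
          · exact h3
          · refine c.mono (Nat.le_succ i) ?_
            rw [ih (by omega)]
            exact c0.mono ht (hv0 t (by omega))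
      exact Ch.ext' this
    · intro f hf h0
      exact St_inj (I := {i | 1 ≤ i ∧ i < n}) (fun c x _ => hK x) (fun i h1 h2 => ⟨h1, h2⟩)
        (Or.inl le_rfl) hf h0
    · let sg : Equiv.Perm (Fin n) → ℂ := fun w => ((Equiv.Perm.sign w * Equiv.Perm.sign
        (Fin.revPerm : Equiv.Perm (Fin n)) : ℤˣ) : ℤ)
      have hw : ∀ w, ch w ∈ Opp lam n (AllS F V) n → w = Fin.revPerm := by
        intro w hw
        have := seq_eq_of_opp hw v hlam (pe w) (fun t ht => pe_lt w ht)
          (fun s hs t ht => pe_inj w hs ht) fun t ht => by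
            rw [flagOf_sp _ _ _ ht]
            exact Submodule.subset_span (Set.mem_image_of_mem _ (Nat.lt_succ_self t))
        ext t
        rw [← pe_fin, ← pe_fin, this t t.2, hrev t t.2]
      refine ⟨_, apartment_mem ch sg ?_, ?_, ?_⟩
      · rintro i ⟨h1, h2⟩
        obtain ⟨i, rfl⟩ : ∃ j, i = j + 1 := ⟨i - 1, by omega⟩
        refine ⟨Equiv.mulRight (Equiv.swap ⟨i, by omega⟩ ⟨i + 1, h2⟩), fun w => ⟨?_, ?_⟩⟩
        · exact adj_flagOf_swap _ _ _ _ _ _ h2 fun t ht => by
            simp only [Equiv.coe_mulRight]; rw [pe_swap w h2 ht]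
        · simp only [sg, Equiv.coe_mulRight, map_mul]
          rw [Equiv.Perm.sign_swap (by simp)]
          simp
      · rw [Finset.sum_eq_single Fin.revPerm]
        · simp only [sg, Int.units_mul_self]; simp
        · intro w hw' hne
          exact absurd (hw w (by rw [(Finset.mem_filter.1 hw').2]; exact hdO)) hne
        · intro h; exact absurd (by simp [d]) h
      · intro c hc hne
        refine Finset.sum_eq_zero fun w hw' => ?_
        have e := (Finset.mem_filter.1 hw').2
        exact absurd (by rw [← e, hw w (e ▸ hc)]) hne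
  obtain ⟨c0⟩ : Nonempty (Ch (AllS F V) n) := by
    let b := Module.finBasis F V
    refine ⟨flagOf (fun t => if h : t < n then b ⟨t, h⟩ else 0) ?_ trivial⟩
    simpa using b.linearIndependent
  obtain ⟨d, O, U, hB, hinj, f0, hf0, h1, h2⟩ := key c0
  refine hasSt_of_base (St (AllS F V) n {i | 1 ≤ i ∧ i < n}) (fun g f hf => St_inv (ρ' g⁻¹) hf)
    (fun c => ?_) hB hinj f0 hf0 h1 h2
  obtain ⟨d, O, U, hB, -⟩ := key c
  exact ⟨d, O, U, hB⟩

end Cfsg.Agent.Lib.Stein
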